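import Cfsg.Agent.Lib.Q5C.Fam

/-!
# Q5 branch C: blocks of involutions
-/

set_option autoImplicit false

namespace Cfsg.Lib.Q5C

open scoped MatrixGroups Matrix commutatorElement
open Cfsg.Geo Cfsg.Lib.Asch Cfsg.Lib.Linear Cfsg.Lib.Q5 Module

variable {K : Type*} [Field K] [CharP K 2] {P : Subgroup (G5 K)} {s t u z : G5 K}

omit [CharP K 2] in
/-- `B` kills a hyperplane of `Y`, so `B A` has rank at most one if `im A ≤ Y`. -/
theorem rank_le_one {A B : Matrix (Fin 5) (Fin 5) K} {Y W : Submodule K (Fin 5 → K)}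
    (hA : LinearMap.range A.mulVecLin ≤ Y) (hW : W ≤ Y) (hB : W ≤ LinearMap.ker B.mulVecLin)
    (d : finrank K Y ≤ finrank K W + 1) : (B * A).rank ≤ 1 := by
  have h1 := (B.mulVecLin.domRestrict Y).finrank_range_add_finrank_ker
  have h2 : finrank K W ≤ finrank K (LinearMap.ker (B.mulVecLin.domRestrict Y)) := by
    rw [← (Submodule.comapSubtypeEquivOfLe hW).finrank_eq]
    exact Submodule.finrank_mono fun v hv => hB hv
  have h3 : (B * A).rank ≤ finrank K (LinearMap.range (B.mulVecLin.domRestrict Y)) := by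
    refine Submodule.finrank_mono ?_
    rintro _ ⟨v, rfl⟩
    exact ⟨⟨_, hA ⟨v, rfl⟩⟩, by simp⟩
  omega

section
variable (n : NT P) (hz : z ∈ P) (z2 : z * z = 1) (z1 : z ≠ 1)
include n hz z2 z1

/-- `im s ≤ kr z` (dimension 3) and `nn s` kills `im z ≤ kr z` (dimension 2), so `nn (s * s) = nn s * nn s` has rank
`≤ 1` (its range is the image of `kr z` at most; rank-nullity for the restriction of `nn s` to `kr z`). -/
theorem Sm.sq (hs : s ∈ P) (e : Sm s z) : s * s = 1 := by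
  refine n _ (mul_mem hs hs) (nn_sq s ▸ rank_le_one (im_le_kr.2 e.2) (im_le_kr.2 (Sm.self z2).1) (im_le_kr.2 e.1) ?_)
  rw [n.fin_kr hz z2 z1, n.fin_im hz z2 z1]

/-- `im s ⊔ im z ≤ kr s ⊓ kr z`; if `im s ≠ im z` the left side has dimension `≥ 3`. -/
theorem Sm.dich (hs : s ∈ P) (s1 : s ≠ 1) (e : Sm s z) : kr s = kr z ∨ im s = im z := by
  have s2 := e.sq n hz z2 z1 hs
  have a := n.fin_im hs s2 s1
  have b := n.fin_im hz z2 z1
  refine or_iff_not_imp_right.2 fun r => ?_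
  have l : im s < im s ⊔ im z := lt_of_le_of_ne le_sup_left fun q =>
    r (Submodule.eq_of_le_of_finrank_eq (q ▸ le_sup_right) (b.trans a.symm)).symm
  have := Submodule.finrank_lt_finrank_of_lt l
  exact (Submodule.eq_of_le_of_finrank_le (sup_le (im_le_kr.2 (Sm.self s2).1) (im_le_kr.2 e.1))
    (by rw [n.fin_kr hs s2 s1]; omega)).symm.trans (Submodule.eq_of_le_of_finrank_le
    (sup_le (im_le_kr.2 e.2) (im_le_kr.2 (Sm.self z2).1)) (by rw [n.fin_kr hz z2 z1]; omega))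

/-- Trivial if `s = 1` or `u = 1`.  Use `dich` twice and `im_le_kr`.  Mixed case `kr s = kr z`, `im u = im z`:
`a = nn s`, `b = nn u`, `a b = 0`, `nn (s * u) = a + b`, `nn ((s * u) * (s * u)) = b a` has rank `≤ 1` (`im s ≤ kr z` and
`b` kills `im z`, as in `sq`), so it is `0`.  The other mixed case is symmetric. -/
theorem Sm.trans (hs : s ∈ P) (hu : u ∈ P) (e : Sm s z) (f : Sm z u) : Sm s u := by
  have k : ∀ {s u}, s ∈ P → u ∈ P → Sm s z → Sm u z → kr s = kr z → im u = im z → Sm s u := fun {s u} hs hu e f a b => by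
    have ab : nn s * nn u = 0 := im_le_kr.1 (b ▸ im_le_kr.2 e.1)
    have ba : nn (s * u * (s * u)) = nn u * nn s := by
      rw [nn_sq, nn_mul s, ab, add_zero, add_mul, mul_add, mul_add, ab, (Sm.self (e.sq n hz z2 z1 hs)).1,
        (Sm.self (f.sq n hz z2 z1 hu)).1, add_zero, add_zero, zero_add]
    refine ⟨ab, ba ▸ nn_eq_zero.2 (n _ (mul_mem (mul_mem hs hu) (mul_mem hs hu)) (ba ▸ rank_le_one (im_le_kr.2 e.2)
      (im_le_kr.2 (Sm.self z2).1) (im_le_kr.2 f.1) ?_))⟩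
    rw [n.fin_kr hz z2 z1, n.fin_im hz z2 z1]
  by_cases s1 : s = 1
  · exact s1 ▸ Sm.one u
  by_cases u1 : u = 1
  · exact u1 ▸ (Sm.one s).symm
  rcases e.dich n hz z2 z1 hs s1 with a | a <;> rcases f.symm.dich n hz z2 z1 hu u1 with b | b
  · exact ⟨im_le_kr.1 (a ▸ im_le_kr.2 f.1), im_le_kr.1 (b ▸ im_le_kr.2 e.2)⟩
  · exact k hs hu e f.symm a b
  · exact (k hu hs f.symm e b a).symm
  · exact ⟨im_le_kr.1 (b ▸ im_le_kr.2 e.1), im_le_kr.1 (a ▸ im_le_kr.2 f.2)⟩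

/-- If `kr s ≠ kr z` and `im t ≠ im z` then `im s = im z`, `kr t = kr z`, and `dich` for `Sm s t` fails. -/
theorem blk_type : (∀ s ∈ P, s ≠ 1 → Sm s z → kr s = kr z) ∨ ∀ s ∈ P, s ≠ 1 → Sm s z → im s = im z := by
  refine or_iff_not_imp_right.2 fun r s hs s1 e => by_contra fun a => r fun t ht t1 f => by_contra fun b => ?_
  have a' := (e.dich n hz z2 z1 hs s1).resolve_left a
  have b' := (f.dich n hz z2 z1 ht t1).resolve_right b
  rcases (e.trans n hz z2 z1 hs ht f.symm).dich n ht (f.sq n hz z2 z1 ht) t1 hs s1 with c | c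
  exacts [a (c.trans b'), b (c.symm.trans a')]

/-- `nn t` maps `kr z` (dimension 3) into itself with square zero, so range `≤` kernel and the kernel `kr z ⊓ kr t`
has dimension `≥ 2`. -/
theorem meet_kr (ht : t ∈ P) (t2 : t * t = 1) (t1 : t ≠ 1) (c : z * t = t * z) : 2 ≤ finrank K ↥(kr z ⊓ kr t) := by
  have _ := ht
  have _ := t1
  have h1 := ((nn t).mulVecLin.domRestrict (kr z)).finrank_range_add_finrank_ker
  have h2 : finrank K (LinearMap.ker ((nn t).mulVecLin.domRestrict (kr z))) = finrank K ↥(kr z ⊓ kr t) := by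
    rw [← (Submodule.comapSubtypeEquivOfLe (inf_le_left : kr z ⊓ kr t ≤ kr z)).finrank_eq,
      show Submodule.comap (kr z).subtype (kr z ⊓ kr t) = LinearMap.ker ((nn t).mulVecLin.domRestrict (kr z)) from
        Submodule.ext fun v => ⟨fun h => h.2, fun h => ⟨v.2, h⟩⟩]
  have h3 : finrank K (LinearMap.range ((nn t).mulVecLin.domRestrict (kr z))) ≤ finrank K ↥(kr z ⊓ kr t) := by
    refine Submodule.finrank_mono ?_
    rintro _ ⟨v, rfl⟩
    refine ⟨mem_kr.2 ?_, im_le_kr.2 (Sm.self t2).1 ⟨v, rfl⟩⟩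
    change nn z *ᵥ nn t *ᵥ v.1 = 0
    rw [Matrix.mulVec_mulVec, nn_comm' c, ← Matrix.mulVec_mulVec, mem_kr.1 v.2, Matrix.mulVec_zero]
  rw [n.fin_kr hz z2 z1] at h1
  omega

/-- Suppose `im z ⊓ im t = ⊥`.  `nn z * nn t = nn t * nn z` has range in the intersection, so `Sm z t`, and
`im z ⊔ im t ≤ kr z` has dimension 4. -/
theorem meet_im (ht : t ∈ P) (t2 : t * t = 1) (t1 : t ≠ 1) (c : z * t = t * z) : 1 ≤ finrank K ↥(im z ⊓ im t) := by
  refine Submodule.one_le_finrank_iff.2 fun r => ?_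
  have e : nn z * nn t = 0 := Matrix.ext_iff_mulVec.2 fun v => by
    rw [Matrix.zero_mulVec]
    exact (Submodule.eq_bot_iff _).1 r _ ⟨mem_im.2 ⟨nn t *ᵥ v, Matrix.mulVec_mulVec _ _ _⟩,
      mem_im.2 ⟨nn z *ᵥ v, (Matrix.mulVec_mulVec _ _ _).trans (by rw [nn_comm' c])⟩⟩
  have := Submodule.finrank_mono (sup_le (im_le_kr.2 (Sm.self z2).1) (im_le_kr.2 e))
  have := Submodule.finrank_sup_add_finrank_inf_eq (im z) (im t)
  rw [r, finrank_bot, n.fin_im hz z2 z1, n.fin_im ht t2 t1] at this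
  have := n.fin_kr hz z2 z1
  omega

/-- `blk_type`; `fam` for `kr z` (`k = 2`; `kr z ⊓ act g (kr z) = kr s ⊓ kr (g t g⁻¹)`, `meet_kr`) or `im z` (`k = 1`). -/
theorem blk_meet (hi : Irr P) (h : ∀ g ∈ P, ∃ s ∈ P, ∃ t ∈ P, s ≠ 1 ∧ t ≠ 1 ∧ Sm s z ∧ Sm t z ∧
    Commute s (g * t * g⁻¹)) : False := by
  have k : ∀ {g t}, g ∈ P → t ∈ P → t ≠ 1 → Sm t z →
      g * t * g⁻¹ ∈ P ∧ g * t * g⁻¹ * (g * t * g⁻¹) = 1 ∧ g * t * g⁻¹ ≠ 1 := fun hg ht t1 f =>
    ⟨mul_mem (mul_mem hg ht) (inv_mem hg), by rw [conj_mul, f.sq n hz z2 z1 ht, mul_one, mul_inv_cancel],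
      fun q => t1 (conj_eq_one_iff.1 q)⟩
  rcases blk_type n hz z2 z1 with b | b
  · refine fam (k := 2) hi (n.fin_kr hz z2 z1) (by decide) le_rfl fun g hg => ?_
    obtain ⟨s, hs, t, ht, s1, t1, e, f, c⟩ := h g hg
    obtain ⟨a1, a2, a3⟩ := k hg ht t1 f
    have := meet_kr n hs (e.sq n hz z2 z1 hs) s1 a1 a2 a3 c
    rwa [kr_conj, b s hs s1 e, b t ht t1 f] at this
  · refine fam (k := 1) hi (n.fin_im hz z2 z1) le_rfl (by decide) fun g hg => ?_
    obtain ⟨s, hs, t, ht, s1, t1, e, f, c⟩ := h g hg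
    obtain ⟨a1, a2, a3⟩ := k hg ht t1 f
    have := meet_im n hs (e.sq n hz z2 z1 hs) s1 a1 a2 a3 c
    rwa [im_conj, b s hs s1 e, b t ht t1 f] at this

end

end Cfsg.Lib.Q5C
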