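import Cfsg.Agent.Lib.Q5C.Def
import Cfsg.Agent.Lib.Perm.Module

/-!
# Q5 branch C: coordinates for a 2-group centralising an involution of rank two
-/

set_option autoImplicit false

namespace Cfsg.Lib.Q5C

open scoped MatrixGroups Matrix commutatorElement
open Cfsg.Geo Cfsg.Lib.Asch Cfsg.Lib.Linear Cfsg.Lib.Q5 Module

variable {K : Type*} [Field K] {T : Subgroup (G5 K)} {z : G5 K}

/-- In the basis `e₁ e₂ y₁ y₂ y₃`: `e₁ ↦ e₁ + a e₂ + p`, `e₂ ↦ e₂ + u`, `y₁ ↦ y₁ + a y₂`, `y₃ ↦ y₃ + b y₁ + c y₂`. -/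
def el (a b c p₁ p₂ p₃ u₁ u₂ u₃ : K) : Matrix (Fin 5) (Fin 5) K :=
  !![1, 0, 0, 0, 0; a, 1, 0, 0, 0; p₁, u₁, 1, 0, b; p₂, u₂, a, 1, c; p₃, u₃, 0, 0, 1]

/-- The matrix has the form `el`. -/
def Fm (M : Matrix (Fin 5) (Fin 5) K) : Prop := ∃ a b c p₁ p₂ p₃ u₁ u₂ u₃, M = el a b c p₁ p₂ p₃ u₁ u₂ u₃

theorem fm_of [CharP K 2] {g : G5 K} {m : ℕ} (hg : g ^ 2 ^ m = 1)
    (c : g.1 * el (0 : K) 0 0 1 0 0 0 1 0 = el 0 0 0 1 0 0 0 1 0 * g.1) (f : g.1 *ᵥ Pi.single 3 1 = Pi.single 3 1) :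
    Fm g.1 := by
  have k := fun i j => congrFun (congrFun c i) j
  have a1 := k 2 0
  have a2 := k 2 1
  have a3 := k 2 2
  have a4 := k 2 3
  have a5 := k 2 4
  have b1 := k 3 0
  have b2 := k 3 1
  have b3 := k 3 2
  have b4 := k 3 3
  have b5 := k 3 4
  have c1 := k 4 0
  have c2 := k 4 1
  have f2 := congrFun f 2
  have f3 := congrFun f 3
  simp only [Matrix.mul_apply, Fin.sum_univ_five] at a1 a2 a3 a4 a5 b1 b2 b3 b4 b5 c1 c2
  simp [el, add_comm] at a1 a2 a3 a4 a5 b1 b2 b3 b4 b5 c1 c2 f2 f3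
  replace a1 : g.1 2 2 = g.1 0 0 := by linear_combination a1
  replace a2 : g.1 0 1 = 0 := by linear_combination f2 - a2
  replace b1 : g.1 3 2 = g.1 1 0 := by linear_combination b1
  replace b2 : g.1 1 1 = 1 := by linear_combination f3 - b2
  have p : ∀ n, (g.1 ^ n) 0 0 = g.1 0 0 ^ n := fun n => by
    induction n with
    | zero => simp
    | succ n ih => rw [pow_succ', pow_succ', Matrix.mul_apply, Fin.sum_univ_five, ih, a2, a3, a4, a5]; ring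
  have e0 : g.1 0 0 = 1 := sub_eq_zero.1 (pow_eq_zero_iff (n := 2 ^ m) (by positivity) |>.1 (by
    rw [sub_pow_char_pow, ← p, ← Units.val_pow_eq_pow_val, hg, one_pow]; simp))
  have e4 := trace_unip 2 (s := 1) hg (Commute.one_left g)
  rw [one_mul, Units.val_one, Matrix.trace_one, Matrix.trace, Fin.sum_univ_five] at e4
  simp only [Matrix.diag_apply, a1, e0, f3, b2] at e4
  refine ⟨g.1 1 0, g.1 2 4, g.1 3 4, g.1 2 0, g.1 3 0, g.1 4 0, g.1 2 1, g.1 3 1, g.1 4 1, ?_⟩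
  have e5 : g.1 4 4 = 1 := by
    rw [Fintype.card_fin] at e4
    push_cast at e4
    linear_combination e4
  ext i j
  fin_cases i <;> fin_cases j <;> simp [el, *]

/-- `W = im z ≤ Y = kr z` (dimensions 2, 3: `nn z * nn z = 0`, `T3.rank_add_ker`) are `T`-invariant (`act_im`,
`act_kr`).  `Perm.exists_fixed_vector` gives `0 ≠ y₂ ∈ W` fixed by `T`; take `y₁ ∈ W - K y₂`, `y₃ ∈ Y - W`,
`nn z eᵢ = yᵢ`.  They are linearly independent (apply `nn z` to a relation), `W = ⟨y₁, y₂⟩`, `Y = ⟨y₁, y₂, y₃⟩`; `k⁻¹` is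
the matrix `B` with these columns, and `(k g k⁻¹).1 = M ↔ g.1 * B = B * M`.  For `g ∈ T`: `g y₁ = α y₁ + a y₂`,
`g y₃ = β y₃ + b y₁ + c y₂`, and `α = β = 1` because `g ^ 2 ^ m = 1` (`g ^ N y₁ ∈ α ^ N y₁ + K y₂`, `g ^ N y₃ ∈ β ^ N y₃ + W`;
`α ^ 2 ^ m = 1` gives `(α - 1) ^ 2 ^ m = 0`).  As `g` commutes with `nn z`: `g e₂ - e₂ ∈ Y`, `g e₁ - e₁ - a e₂ ∈ Y`. -/
theorem coord [CharP K 2] [Finite T] (hT : IsPGroup 2 T) (z2 : z * z = 1) (r : (nn z).rank = 2)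
    (c : ∀ g ∈ T, g * z = z * g) :
    ∃ k : G5 K, (k * z * k⁻¹).1 = el 0 0 0 1 0 0 0 1 0 ∧ ∀ g ∈ T, Fm (k * g * k⁻¹).1 := by
  have wy : im z ≤ kr z := im_le_kr.2 (Sm.self z2).1
  have d3 := T3.rank_add_ker (nn z)
  rw [r] at d3
  replace r : finrank K (im z) = 2 := r
  obtain ⟨y₂, h2, n2, f2⟩ := Perm.exists_fixed_vector hT
    ((Matrix.toLinAlgEquiv' (R := K) (n := Fin 5)).toMonoidHom.comp ((Units.coeHom _).comp T.subtype)) (im z)
    (fun g v hv => act_im (c g g.2) ▸ app_mem_act hv) fun e => by rw [e, finrank_bot] at r; omega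
  obtain ⟨y₁, h1, n1⟩ := SetLike.not_le_iff_exists.1 fun e : im z ≤ K ∙ y₂ => by
    have := Submodule.finrank_mono e
    rw [r, finrank_span_singleton n2] at this
    omega
  obtain ⟨y₃, h3, n3⟩ := SetLike.not_le_iff_exists.1 fun e : kr z ≤ im z => by
    have : finrank K (LinearMap.ker (nn z).mulVecLin) ≤ _ := Submodule.finrank_mono e
    omega
  obtain ⟨e₁, q1⟩ := mem_im.1 h1
  obtain ⟨e₂, q2⟩ := mem_im.1 h2
  have two : ∀ a b : K, a • y₁ + b • y₂ = 0 → a = 0 ∧ b = 0 := fun a b e => by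
    have : a = 0 := by_contra fun n => n1 ((Submodule.smul_mem_iff _ n).1
      (eq_neg_of_add_eq_zero_left e ▸ neg_mem (Submodule.smul_mem _ _ (Submodule.mem_span_singleton_self _))))
    rw [this, zero_smul, zero_add] at e
    exact ⟨this, (smul_eq_zero.1 e).resolve_right n2⟩
  have k1 := mem_kr.1 (wy h1)
  have k2 := mem_kr.1 (wy h2)
  have k3 := mem_kr.1 h3
  have li : LinearIndependent K ![e₁, e₂, y₁, y₂, y₃] := Fintype.linearIndependent_iff.2 fun g hg => by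
    rw [Fin.sum_univ_five] at hg
    simp only [Matrix.cons_val] at hg
    have p := congrArg (nn z *ᵥ ·) hg
    simp only [Matrix.mulVec_add, Matrix.mulVec_smul, q1, q2, k1, k2, k3, Matrix.mulVec_zero, smul_zero, add_zero] at p
    obtain ⟨g0, g1⟩ := two _ _ p
    rw [g0, g1, zero_smul, zero_smul, zero_add, zero_add] at hg
    have g4 : g 4 = 0 := by_contra fun n => n3 ((Submodule.smul_mem_iff _ n).1
      (eq_neg_of_add_eq_zero_right hg ▸ neg_mem (add_mem (Submodule.smul_mem _ _ h1) (Submodule.smul_mem _ _ h2))))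
    rw [g4, zero_smul, add_zero] at hg
    intro i
    fin_cases i
    exacts [g0, g1, (two _ _ hg).1, (two _ _ hg).2, g4]
  obtain ⟨k, hk⟩ : IsUnit (Matrix.of ![e₁, e₂, y₁, y₂, y₃])ᵀ := Matrix.linearIndependent_cols_iff_isUnit.1 li
  have hz : (k⁻¹ * z * k⁻¹⁻¹).1 = el 0 0 0 1 0 0 0 1 0 := by
    rw [inv_inv, mul_assoc, Units.val_mul, Units.inv_mul_eq_iff_eq_mul, Units.val_mul, hk]
    ext i j
    have : (z.1 * (Matrix.of ![e₁, e₂, y₁, y₂, y₃])ᵀ) i j = (z.1 *ᵥ ![e₁, e₂, y₁, y₂, y₃] j) i := rfl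
    rw [this, app_eq, Matrix.mul_apply, Fin.sum_univ_five]
    fin_cases j <;> simp [el, q1, q2, k1, k2, k3]
  refine ⟨k⁻¹, hz, fun g hg => ?_⟩
  obtain ⟨m, hm⟩ := hT ⟨g, hg⟩
  refine fm_of (m := m) (by rw [conj_pow, show g ^ 2 ^ m = 1 from congrArg Subtype.val hm, mul_one, mul_inv_cancel])
    (by rw [← hz, ← Units.val_mul, ← Units.val_mul, conj_mul, c g hg, conj_mul]) ?_
  have e : k.1 *ᵥ Pi.single 3 1 = y₂ := by rw [hk]; ext i; simp
  rw [inv_inv, Units.val_mul, Units.val_mul, ← Matrix.mulVec_mulVec, ← Matrix.mulVec_mulVec, e,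
    show g.1 *ᵥ y₂ = y₂ from f2 ⟨g, hg⟩, ← e, Matrix.mulVec_mulVec, Units.inv_mul, Matrix.one_mulVec]

end Cfsg.Lib.Q5C
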