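import Cfsg.Agent.Lib.Q5A.Def

/-!
# Q5 branch C (characteristic two, no transvections): notation and group data
-/

set_option autoImplicit false

namespace Cfsg.Lib.Q5C

open scoped MatrixGroups Matrix commutatorElement
open Cfsg.Geo Cfsg.Lib.Asch Cfsg.Lib.Linear Cfsg.Lib.Q5 Module

variable {K : Type*} [Field K] {P : Subgroup (G5 K)} {g h s t z : G5 K} {D E : Submodule K (Fin 5 → K)}
  {v : Fin 5 → K}

/-- `g - 1`. -/
abbrev nn (g : G5 K) : Matrix (Fin 5) (Fin 5) K := g.1 - 1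

/-- No element of `P` moves a space of dimension one only. -/
def NT (P : Subgroup (G5 K)) : Prop := ∀ g ∈ P, (nn g).rank ≤ 1 → g = 1

/-- `(s - 1)(t - 1) = 0 = (t - 1)(s - 1)`. -/
def Sm (s t : G5 K) : Prop := nn s * nn t = 0 ∧ nn t * nn s = 0

/-- The fixed space. -/
def kr (g : G5 K) : Submodule K (Fin 5 → K) := LinearMap.ker (nn g).mulVecLin

/-- The commutator space. -/
def im (g : G5 K) : Submodule K (Fin 5 → K) := LinearMap.range (nn g).mulVecLin

/-- The image of a subspace. -/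
def act (g : G5 K) (D : Submodule K (Fin 5 → K)) : Submodule K (Fin 5 → K) := D.map g.1.mulVecLin

theorem mem_kr : v ∈ kr g ↔ nn g *ᵥ v = 0 := Iff.rfl

theorem mem_im : v ∈ im g ↔ ∃ x, nn g *ᵥ x = v := Iff.rfl

theorem nn_app (g : G5 K) (v : Fin 5 → K) : nn g *ᵥ v = g.1 *ᵥ v - v := by
  rw [Matrix.sub_mulVec, Matrix.one_mulVec]

theorem app_eq (g : G5 K) (v : Fin 5 → K) : g.1 *ᵥ v = v + nn g *ᵥ v := by rw [nn_app, add_sub_cancel]

theorem nn_mul (g h : G5 K) : nn (g * h) = nn g + nn h + nn g * nn h := by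
  simp only [nn, Units.val_mul]; noncomm_ring

theorem nn_conj (g t : G5 K) : nn (g * t * g⁻¹) = g.1 * nn t * g⁻¹.1 := by
  simp only [nn, Units.val_mul, mul_sub, sub_mul, mul_one, Units.mul_inv]

theorem nn_comm (e : g * t = t * g) : g.1 * nn t = nn t * g.1 := by
  rw [mul_sub, sub_mul, ← Units.val_mul, e, Units.val_mul, mul_one, one_mul]

theorem nn_comm' (e : g * t = t * g) : nn g * nn t = nn t * nn g := by
  rw [sub_mul, nn_comm e, mul_sub (nn t), one_mul, mul_one]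

theorem nn_eq_zero : nn g = 0 ↔ g = 1 := by rw [sub_eq_zero, ← Units.val_one, Units.val_inj]

theorem nn_sq [CharP K 2] (g : G5 K) : nn (g * g) = nn g * nn g := by
  rw [nn_mul, ← two_smul K, CharTwo.two_eq_zero, zero_smul, zero_add]

theorem mem_act : v ∈ act g D ↔ g⁻¹.1 *ᵥ v ∈ D := by
  refine ⟨?_, fun e => ⟨_, e, ?_⟩⟩
  · rintro ⟨x, hx, rfl⟩
    rwa [Matrix.mulVecLin_apply, Matrix.mulVec_mulVec, Units.inv_mul, Matrix.one_mulVec]
  · rw [Matrix.mulVecLin_apply, Matrix.mulVec_mulVec, Units.mul_inv, Matrix.one_mulVec]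

theorem app_mem_act (e : v ∈ D) : g.1 *ᵥ v ∈ act g D := ⟨v, e, rfl⟩

theorem act_mul (g h : G5 K) (D : Submodule K (Fin 5 → K)) : act (g * h) D = act g (act h D) := by
  ext v; simp only [mem_act, mul_inv_rev, Units.val_mul, Matrix.mulVec_mulVec]

theorem act_one (D : Submodule K (Fin 5 → K)) : act 1 D = D := by ext v; simp [mem_act]

theorem act_inf (g : G5 K) (D E : Submodule K (Fin 5 → K)) : act g (D ⊓ E) = act g D ⊓ act g E := by
  ext v; simp only [mem_act, Submodule.mem_inf]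

theorem act_sup (g : G5 K) (D E : Submodule K (Fin 5 → K)) : act g (D ⊔ E) = act g D ⊔ act g E :=
  Submodule.map_sup _ _ _

theorem act_mono (g : G5 K) (e : D ≤ E) : act g D ≤ act g E := Submodule.map_mono e

theorem finrank_act (g : G5 K) (D : Submodule K (Fin 5 → K)) : finrank K (act g D) = finrank K D := by
  refine le_antisymm (Submodule.finrank_map_le _ _) ?_
  conv_lhs => rw [← act_one D, ← inv_mul_cancel g, act_mul]
  exact Submodule.finrank_map_le _ _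

theorem act_eq_of_le (e : ∀ v ∈ D, g.1 *ᵥ v ∈ D) : act g D = D :=
  Submodule.eq_of_le_of_finrank_eq (by rintro _ ⟨v, hv, rfl⟩; exact e v hv) (finrank_act g D)

theorem kr_conj (g t : G5 K) : kr (g * t * g⁻¹) = act g (kr t) := by
  ext v
  rw [mem_act, mem_kr, mem_kr, nn_conj, ← Matrix.mulVec_mulVec, ← Matrix.mulVec_mulVec]
  refine ⟨fun e => ?_, fun e => by rw [e, Matrix.mulVec_zero]⟩
  simpa only [Matrix.mulVec_mulVec, ← mul_assoc, Units.inv_mul, one_mul, Matrix.mulVec_zero] using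
    congrArg (g⁻¹.1 *ᵥ ·) e

theorem im_conj (g t : G5 K) : im (g * t * g⁻¹) = act g (im t) := by
  ext v
  rw [mem_act, mem_im, mem_im, nn_conj]
  constructor
  · rintro ⟨x, rfl⟩
    exact ⟨g⁻¹.1 *ᵥ x, by simp only [Matrix.mulVec_mulVec, ← mul_assoc, Units.inv_mul, one_mul]⟩
  · rintro ⟨x, e⟩
    refine ⟨g.1 *ᵥ x, ?_⟩
    rw [Matrix.mulVec_mulVec, mul_assoc, Units.inv_mul, mul_one, ← Matrix.mulVec_mulVec, e, Matrix.mulVec_mulVec,
      Units.mul_inv, Matrix.one_mulVec]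

theorem act_kr (e : g * t = t * g) : act g (kr t) = kr t := by rw [← kr_conj, e, mul_inv_cancel_right]

theorem act_im (e : g * t = t * g) : act g (im t) = im t := by rw [← im_conj, e, mul_inv_cancel_right]

theorem im_le_kr : im s ≤ kr t ↔ nn t * nn s = 0 := by
  refine ⟨fun e => Matrix.toLin'.injective (LinearMap.ext fun x => ?_), ?_⟩
  · rw [Matrix.toLin'_apply, Matrix.toLin'_apply, ← Matrix.mulVec_mulVec, Matrix.zero_mulVec]
    exact mem_kr.1 (e ⟨x, rfl⟩)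
  · rintro e _ ⟨x, rfl⟩
    rw [mem_kr, Matrix.mulVecLin_apply, Matrix.mulVec_mulVec, e, Matrix.zero_mulVec]

/-- The dimension formula in `K⁵`. -/
theorem inf_ge (D E : Submodule K (Fin 5 → K)) : finrank K D + finrank K E ≤ finrank K ↥(D ⊓ E) + 5 := by
  have := Submodule.finrank_sup_add_finrank_inf_eq D E
  have := (D ⊔ E).finrank_le.trans_eq (by simp : _ = 5)
  omega

theorem nt_of (h : QS P) (ht : ¬ HasTv P) : NT P := fun g hg r => by
  rcases Nat.le_one_iff_eq_zero_or_eq_one.1 r with r | r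
  exacts [nn_eq_zero.1 (T3.eq_zero_of_rank r), (ht (hasTv_of_rank hg (h.det hg) r)).elim]

theorem NT.mono {Q : Subgroup (G5 K)} (n : NT P) (e : Q ≤ P) : NT Q := fun g hg => n g (e hg)

theorem NT.eq (n : NT P) (hg : g ∈ P) (hh : h ∈ P) (r : (g.1 - h.1).rank ≤ 1) : g = h := by
  refine mul_inv_eq_one.1 (n _ (mul_mem hg (inv_mem hh)) (le_trans ?_ r))
  have : nn (g * h⁻¹) = (g.1 - h.1) * h⁻¹.1 := by rw [sub_mul, Units.mul_inv, ← Units.val_mul]
  exact this ▸ Matrix.rank_mul_le_left _ _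

theorem NT.conj (n : NT P) (k : G5 K) : NT (P.map (MulAut.conj k).toMonoidHom) := by
  rintro _ ⟨g, hg, rfl⟩ r
  have e : nn g = k⁻¹.1 * nn (k * g * k⁻¹) * k.1 := by
    rw [nn_conj, ← mul_assoc, ← mul_assoc, Units.inv_mul, one_mul, mul_assoc, Units.inv_mul, mul_one]
  rw [n g hg (e ▸ (Matrix.rank_mul_le_left _ _).trans ((Matrix.rank_mul_le_right _ _).trans r)), map_one]

section two

variable [CharP K 2] (n : NT P) (ht : t ∈ P) (t2 : t * t = 1) (t1 : t ≠ 1)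
include n ht t2 t1

theorem NT.rank : (nn t).rank = 2 :=
  le_antisymm (rank_inv_two t2) (not_le.1 fun r => t1 (n t ht r))

theorem NT.fin_im : finrank K (im t) = 2 := n.rank ht t2 t1

theorem NT.fin_kr : finrank K (kr t) = 3 := by
  have := T3.rank_add_ker (nn t)
  rw [n.rank ht t2 t1] at this
  exact Nat.add_left_cancel this

end two

namespace Sm

theorem symm (e : Sm s t) : Sm t s := ⟨e.2, e.1⟩

theorem one (t : G5 K) : Sm 1 t := by rw [Sm, nn_eq_zero.2 rfl, zero_mul, mul_zero, and_self]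

theorem self [CharP K 2] (t2 : t * t = 1) : Sm t t := by
  have := nn_sq t
  rw [t2, nn_eq_zero.2 rfl] at this
  exact ⟨this.symm, this.symm⟩

theorem conj (e : Sm s t) (g : G5 K) : Sm (g * s * g⁻¹) (g * t * g⁻¹) := by
  have k : ∀ a b : G5 K, nn a * nn b = 0 → nn (g * a * g⁻¹) * nn (g * b * g⁻¹) = 0 := fun a b e => by
    rw [nn_conj, nn_conj, mul_assoc, mul_assoc, ← mul_assoc g⁻¹.1, ← mul_assoc g⁻¹.1, Units.inv_mul, one_mul,
      ← mul_assoc (nn a), e, zero_mul, mul_zero]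
  exact ⟨k _ _ e.1, k _ _ e.2⟩

theorem of_conj (g : G5 K) (e : Sm (g * s * g⁻¹) (g * t * g⁻¹)) : Sm s t := by
  simpa [mul_assoc] using e.conj g⁻¹

theorem mul (e : Sm s z) (f : Sm t z) : Sm (s * t) z := by
  constructor
  · rw [nn_mul, add_mul, add_mul, mul_assoc, e.1, f.1, mul_zero, add_zero, add_zero]
  · rw [nn_mul, mul_add, mul_add, ← mul_assoc, e.2, f.2, zero_mul, add_zero, add_zero]

theorem comm (e : Sm s t) : s * t = t * s := by
  have : nn (s * t) = nn (t * s) := by rw [nn_mul, nn_mul, e.1, e.2, add_comm (nn s)]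
  exact Units.ext (sub_left_injective this)

end Sm

variable {X : Type*} [Group X]

/-- A group of rank one whose central involutions are squares (`U₃(2ᵃ)`). -/
structure R1 (U : Subgroup X) (z w : X) : Prop where
  pg : IsPGroup 2 U
  z2 : z * z = 1
  z1 : z ≠ 1
  cz : ∀ u ∈ U, u * z = z * u
  br : ∀ g, (∃ v ∈ U, g * z * g⁻¹ = v * v) ∨ ∃ u ∈ U, ∃ b, (∃ v ∈ U, b * z * b⁻¹ = v * v) ∧ g = u * w * b

/-- Root elements of `L₃(2ᵃ)`. -/
structure L3D {I : Type*} (z : X) (a b c : I → X) : Prop where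
  z2 : z * z = 1
  z1 : z ≠ 1
  a2 : ∀ i, a i * a i = 1
  b2 : ∀ i, b i * b i = 1
  az : ∀ i, a i * z = z * a i
  bz : ∀ i, b i * z = z * b i
  ab : ∀ i j, (a i * b j) ^ 4 = 1
  cm : ∀ i, ∃ j k, ⁅a j, b k⁆ = c i
  nc : ∀ i j, a i * b j = b j * a i → a i = 1 ∨ b j = 1
  ma : ∀ g, ∃ i j k l, a i * c j ≠ 1 ∧ a k * c l ≠ 1 ∧ Commute (a i * c j) (g * (a k * c l) * g⁻¹)
  mb : ∀ g, ∃ i j k l, b i * c j ≠ 1 ∧ b k * c l ≠ 1 ∧ Commute (b i * c j) (g * (b k * c l) * g⁻¹)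

/-- The elements `(12), (35)(46), (34), (13)(24), (45)` of `S₆ = Sp₄(2)`. -/
structure SpD (z a b u w : X) : Prop where
  z2 : z * z = 1
  z1 : z ≠ 1
  a2 : a * a = 1
  b2 : b * b = 1
  az : a * z = z * a
  bz : b * z = z * b
  ab : (a * b) ^ 4 = 1
  y1 : z * ⁅a, b⁆ ≠ 1
  uy : u * (z * ⁅a, b⁆) * u⁻¹ = z * ⁅a, b⁆
  uz : u * z * u⁻¹ = b
  wz : w * z * w⁻¹ = z
  nc : ¬ Commute b (w * b * w⁻¹)

/-- An element of prime order `r ≠ 2, 5` conjugate to a power `x ^ m` with `m` of order at least six modulo `r`. -/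
def Six (X : Type*) [Group X] : Prop := ∃ (x g : X) (r m : ℕ), r.Prime ∧ r ≠ 2 ∧ r ≠ 5 ∧ x ^ r = 1 ∧ x ≠ 1 ∧
  g * x * g⁻¹ = x ^ m ∧ ∀ j, 0 < j → j ≤ 5 → m ^ j % r ≠ 1

end Cfsg.Lib.Q5C
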