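import Cfsg.Agent.Lib.Q5C.Def

/-!
# Q5 branch C: orbits of subspaces that meet pairwise in codimension one
-/

set_option autoImplicit false

namespace Cfsg.Lib.Q5C

open scoped MatrixGroups Matrix commutatorElement
open Cfsg.Geo Cfsg.Lib.Asch Cfsg.Lib.Linear Cfsg.Lib.Q5 Module

variable {K : Type*} [Field K] {P : Subgroup (G5 K)} {D : Submodule K (Fin 5 → K)} {k : ℕ}

theorem fam_aux {ι : Type*} (W : ι → Submodule K (Fin 5 → K)) (i : ι) (h1 : 1 ≤ k) (h2 : k ≤ 2)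
    (d : ∀ i, finrank K (W i) = k + 1) (m : ∀ i j, k ≤ finrank K ↥(W i ⊓ W j)) (hs : ⨆ i, W i = ⊤)
    (hb : ⨅ i, W i = ⊥) : False := by
  have ex : ∀ S : Submodule K (Fin 5 → K), finrank K S ≤ 4 → ∃ j, ¬ W j ≤ S := fun S q => by
    by_contra r
    rw [top_le_iff.1 (hs ▸ iSup_le fun j => by_contra fun c => r ⟨j, c⟩ : ⊤ ≤ S)] at q
    simp at q
  have lt : ∀ {c} {S : Submodule K (Fin 5 → K)}, ¬ W c ≤ S → finrank K ↥(W c ⊓ S) ≤ k := fun {c S} n => by
    have := Submodule.finrank_lt_finrank_of_lt (lt_of_le_of_ne inf_le_left fun e => n (inf_eq_left.1 e) : W c ⊓ S < W c)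
    have := d c
    omega
  obtain ⟨j, hj⟩ := ex (W i) (by have := d i; omega)
  obtain ⟨l, hl⟩ := ex (W j ⊔ W i) (by
    have := Submodule.finrank_sup_add_finrank_inf_eq (W j) (W i)
    have := m j i
    have := d i
    have := d j
    omega)
  have q : ∀ c, ¬ W c ≤ W j ⊔ W i → W c ⊓ (W j ⊔ W i) = W j ⊓ W i := fun c hc => by
    have q : ∀ {e}, W e ≤ W j ⊔ W i → W c ⊓ W e = W c ⊓ (W j ⊔ W i) := fun {e} he =>
      Submodule.eq_of_le_of_finrank_le (inf_le_inf_left _ he) ((lt hc).trans (m c e))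
    refine Submodule.eq_of_le_of_finrank_le (le_inf (q le_sup_left ▸ inf_le_right) (q le_sup_right ▸ inf_le_right))
      ((lt hj).trans (q le_sup_left ▸ m c j))
  have : W j ⊓ W i ≤ ⊥ := hb ▸ le_iInf fun c => by
    by_cases hc : W c ≤ W j ⊔ W i
    · rw [← Submodule.eq_of_le_of_finrank_le ((inf_le_inf_left _ hc).trans (q l hl).le) ((lt hj).trans (m l c))]
      exact inf_le_right
    · exact q c hc ▸ inf_le_left
  have := (m j i).trans ((Submodule.finrank_mono this).trans_eq (finrank_bot _ _))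
  omega

/-- `I = ⨅ g ∈ P, act g D` and `S = ⨆ g ∈ P, act g D` are invariant, `I ≤ D ≠ ⊤`, `⊥ ≠ D ≤ S`, so `I = ⊥`, `S = ⊤`.
Any two members meet in dimension `≥ k` (`act g D ⊓ act h D = act g (D ⊓ act (g⁻¹ h) D)`).  Some member `D₁ ≠ D`
(else `I = D`); `C = D ⊓ D₁` has dimension `k`, `E = D ⊔ D₁` dimension `k + 2 ≤ 4`.  A member `D' ≰ E` contains `C`:
`A = D' ⊓ D`, `B = D' ⊓ D₁` lie in `D' ⊓ E < D'` (dimension `≤ k`), so `A = D' ⊓ E = B ≤ C`, `A = C`; in particular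
`D' ⊓ E = C`.  Take members `D₃ ≰ E` (`S = ⊤`) and `D₂ ≱ C` (`I = ⊥ ≠ C`), so `D₂ ≤ E`; `D₂ ⊓ D₃ ≤ D₃ ⊓ E = C` has
dimension `≥ k`, so equals `C`, and `C ≤ D₂`. -/
theorem fam (hi : Irr P) (hD : finrank K D = k + 1) (h1 : 1 ≤ k) (h2 : k ≤ 2)
    (h : ∀ g ∈ P, k ≤ finrank K ↥(D ⊓ act g D)) : False := by
  have d : ∀ g : P, finrank K (act g.1 D) = k + 1 := fun g => (finrank_act _ _).trans hD
  have m : ∀ i j : P, k ≤ finrank K ↥(act i.1 D ⊓ act j.1 D) := fun i j => by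
    have := h _ (i⁻¹ * j).2
    rwa [← finrank_act i.1, act_inf, ← act_mul, Subgroup.coe_mul, Subgroup.coe_inv, mul_inv_cancel_left] at this
  have iv : ∀ (g j : P) {z}, z ∈ act j.1 D → g.1.1 *ᵥ z ∈ act (g * j).1 D := fun g j z hz => by
    rw [Subgroup.coe_mul, act_mul]; exact app_mem_act hz
  have hs : ⨆ g : P, act g.1 D = ⊤ := (hi _ fun g hg z hz => by
    induction hz using Submodule.iSup_induction' with
    | mem j z hz => exact Submodule.mem_iSup_of_mem _ (iv ⟨g, hg⟩ j hz)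
    | zero => simp
    | add u v _ _ hu hv => rw [Matrix.mulVec_add]; exact add_mem hu hv).resolve_left fun r => by
      have := (Submodule.finrank_mono ((le_iSup (fun g : P => act g.1 D) 1).trans r.le)).trans_eq (finrank_bot _ _)
      have := d 1
      omega
  have hb : ⨅ g : P, act g.1 D = ⊥ := (hi _ fun g hg z hz => (Submodule.mem_iInf _).2 fun j => by
    simpa only [mul_inv_cancel_left] using
      iv ⟨g, hg⟩ _ ((Submodule.mem_iInf _).1 hz (⟨g, hg⟩⁻¹ * j))).resolve_right fun r => by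
      have := Submodule.finrank_mono (r.ge.trans (iInf_le (fun g : P => act g.1 D) 1))
      rw [d, finrank_top, finrank_fin_fun] at this
      omega
  exact fam_aux _ 1 h1 h2 d m hs hb

end Cfsg.Lib.Q5C
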