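import Cfsg.Agent.Lib.Q5C.Def
import Cfsg.Agent.Lib.Linear.Simple

/-!
# Q5 branch C: data of `L₃(2ᵃ)`
-/

set_option autoImplicit false

namespace Cfsg.Lib.Q5C

open scoped MatrixGroups Matrix commutatorElement

namespace L3

variable {E : Type*} [Field E]

/-- unitriangular matrices -/
def ut (a b c : E) : SL(3, E) := ⟨!![1, a, c; 0, 1, b; 0, 0, 1], by simp [Matrix.det_fin_three]⟩

/-- their images -/
def t (a b c : E) : PSL(3, E) := QuotientGroup.mk' _ (ut a b c)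

theorem t_mul (a b c a' b' c' : E) : t a b c * t a' b' c' = t (a + a') (b + b') (c + c' + a * b') := by
  rw [t, t, ← map_mul, t]
  congr 1
  ext i j
  rw [Matrix.SpecialLinearGroup.coe_mul]
  fin_cases i <;> fin_cases j <;> simp [ut] <;> ring

theorem t_one {a b c : E} : t a b c = 1 ↔ a = 0 ∧ b = 0 ∧ c = 0 := by
  constructor
  · intro h
    obtain ⟨r, -, e⟩ := Matrix.SpecialLinearGroup.mem_center_iff.1 ((QuotientGroup.eq_one_iff _).1 h)
    exact ⟨by simpa [ut] using (congrFun (congrFun e 0) 1).symm, by simpa [ut] using (congrFun (congrFun e 1) 2).symm,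
      by simpa [ut] using (congrFun (congrFun e 0) 2).symm⟩
  · rintro ⟨rfl, rfl, rfl⟩
    rw [t, show ut (0 : E) 0 0 = 1 by ext i j; fin_cases i <;> fin_cases j <;> simp [ut], map_one]

theorem t_inv (a b c : E) : (t a b c)⁻¹ = t (-a) (-b) (a * b - c) :=
  inv_eq_of_mul_eq_one_right (by rw [t_mul, t_one]; exact ⟨by ring, by ring, by ring⟩)

theorem comm (g : SL(3, E)) {A B : SL(3, E)} {u φ w ψ : Fin 3 → E} (hA : A.1 = 1 + Matrix.vecMulVec u φ)
    (hB : B.1 = 1 + Matrix.vecMulVec w (ψ ᵥ* g.1)) (h1 : φ ⬝ᵥ (g.1 *ᵥ w) = 0) (h2 : ψ ⬝ᵥ u = 0) :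
    Commute (QuotientGroup.mk' _ A : PSL(3, E)) (QuotientGroup.mk' _ g * QuotientGroup.mk' _ B * (QuotientGroup.mk' _ g)⁻¹) := by
  rw [← map_inv, ← map_mul, ← map_mul]
  refine Commute.map (show A * _ = _ * A from Subtype.ext ?_) _
  have : (g * B * g⁻¹).1 = 1 + Matrix.vecMulVec (g.1 *ᵥ w) ψ := by
    rw [Matrix.SpecialLinearGroup.coe_mul, Matrix.SpecialLinearGroup.coe_mul, hB, mul_add, add_mul, mul_one, Matrix.mul_vecMulVec,
      Matrix.vecMulVec_mul, Matrix.vecMul_vecMul, ← Matrix.SpecialLinearGroup.coe_mul, mul_inv_cancel,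
      Matrix.SpecialLinearGroup.coe_one, Matrix.vecMul_one]
  rw [Matrix.SpecialLinearGroup.coe_mul, Matrix.SpecialLinearGroup.coe_mul (g * B * g⁻¹), this, hA]
  simp only [mul_add, add_mul, mul_one, one_mul, Matrix.vecMulVec_mul_vecMulVec, h1, h2, zero_smul, Matrix.vecMulVec_zero, add_zero]
  abel

end L3

/-- With `x i j c` the image of `SpecialLinearGroup.transvection`: `z = x 0 2 1`, `a c = x 0 1 c`, `b c = x 1 2 c`,
`c d = x 0 2 d`.  A central element of `SL₃` is scalar (`SpecialLinearGroup.mem_center_iff`), so a unitriangular matrix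
with a non-zero off-diagonal entry has non-trivial image.  `cm`: `⁅a i, b 1⁆ = c i`; `nc`: `⁅a i, b j⁆ = c (i j)`.
`ma`: `a i * c j = 1 + e₀ ⊗ (0, i, j)`.  For `g ∈ SL₃` with first column `v` take `f = (0, i, j) ≠ 0` with `f ⬝ v = 0`
(`(0, v 2, v 1)`, or `(0, 1, 0)` if that is zero), `(0, k, l) = f ᵥ* g ≠ 0`; then `g (1 + e₀ ⊗ f g) g⁻¹ = 1 + v ⊗ f` commutes
with `1 + e₀ ⊗ f`.  `mb`: `b i * c j = 1 + u ⊗ e₂`, `u = (j, i, 0) ≠ 0` with `φ ⬝ u = 0` for `φ` the last row of `g⁻¹`,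
`(l, k, 0) = g⁻¹ u`; `g (1 + g⁻¹ u ⊗ e₂) g⁻¹ = 1 + u ⊗ φ`. -/
theorem l3d_psl {E : Type*} [Field E] [CharP E 2] : ∃ (z : PSL(3, E)) (a b c : E → PSL(3, E)), L3D z a b c := by
  have a2 : ∀ x : E, x + x = 0 := CharTwo.add_self_eq_zero
  have cm : ∀ i j : E, ⁅L3.t i 0 0, L3.t 0 j 0⁆ = L3.t 0 0 (i * j) := fun i j => by
    simp [commutatorElement_def, L3.t_inv, L3.t_mul]
  have nz : ∀ v : Fin 3 → E, ∀ r s : Fin 3, ∃ i j : E, (i ≠ 0 ∨ j ≠ 0) ∧ i * v r + j * v s = 0 := fun v r s => by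
    by_cases e : v r = 0
    · exact ⟨1, 0, .inl one_ne_zero, by simp [e]⟩
    · exact ⟨v s, v r, .inr e, by rw [mul_comm, a2]⟩
  refine ⟨L3.t 0 0 1, fun i => L3.t i 0 0, fun i => L3.t 0 i 0, fun i => L3.t 0 0 i, by simp [L3.t_mul, L3.t_one, a2],
    by simp [L3.t_one], fun i => by simp [L3.t_mul, L3.t_one, a2], fun i => by simp [L3.t_mul, L3.t_one, a2],
    fun i => by simp [L3.t_mul], fun i => by simp [L3.t_mul], fun i j => ?_, fun i => ⟨i, 1, by rw [cm, mul_one]⟩, fun i j e => ?_,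
    fun g => ?_, fun g => ?_⟩
  · rw [show 4 = 2 * 2 from rfl, pow_mul]
    simp [sq, L3.t_mul, L3.t_one, a2]
  · simpa [cm, L3.t_one] using commutatorElement_eq_one_iff_mul_comm.2 e
  · obtain ⟨g, rfl⟩ := QuotientGroup.mk'_surjective _ g
    obtain ⟨i, j, n, e⟩ := nz (g.1 *ᵥ ![1, 0, 0]) 1 2
    have e0 : ![0, i, j] ⬝ᵥ (g.1 *ᵥ ![1, 0, 0]) = 0 := by simpa [dotProduct, Fin.sum_univ_three] using e
    have e1 : (![0, i, j] ᵥ* g.1) 0 = 0 := by
      rw [Matrix.dotProduct_mulVec] at e0; simpa [dotProduct, Fin.sum_univ_three] using e0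
    refine ⟨i, j, (![0, i, j] ᵥ* g.1) 1, (![0, i, j] ᵥ* g.1) 2, by simpa [L3.t_mul, L3.t_one, -not_and, not_and_or] using n, ?_, ?_⟩
    · simp only [L3.t_mul, Ne, L3.t_one, add_zero, zero_add, mul_zero, true_and]
      rintro ⟨b, c⟩
      have : ![0, i, j] ᵥ* g.1 = 0 := funext fun k => by fin_cases k; exacts [e1, b, c]
      have := congrArg (· ᵥ* (g⁻¹).1) this
      simp only [Matrix.vecMul_vecMul, ← Matrix.SpecialLinearGroup.coe_mul, mul_inv_cancel, Matrix.SpecialLinearGroup.coe_one,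
        Matrix.vecMul_one, Matrix.zero_vecMul] at this
      exact n.elim (· (congrFun this 1)) (· (congrFun this 2))
    simp only [L3.t_mul, add_zero, zero_add, mul_zero]
    exact L3.comm g (u := ![1, 0, 0]) (φ := ![0, i, j]) (w := ![1, 0, 0]) (ψ := ![0, i, j])
      (by ext a b; fin_cases a <;> fin_cases b <;> simp [L3.ut])
      (by
          generalize ![0, i, j] ᵥ* g.1 = y at e1
          ext a b
          rw [Matrix.add_apply, Matrix.vecMulVec_apply]; fin_cases a <;> fin_cases b <;> simp [L3.ut, e1]) e0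
      (by simp [dotProduct, Fin.sum_univ_three])
  · obtain ⟨g, rfl⟩ := QuotientGroup.mk'_surjective _ g
    obtain ⟨j, i, n, e⟩ := nz (![0, 0, 1] ᵥ* (g⁻¹).1) 0 1
    have e0 : (![0, 0, 1] ᵥ* (g⁻¹).1) ⬝ᵥ ![j, i, 0] = 0 := by
      rw [dotProduct_comm]; simpa [dotProduct, Fin.sum_univ_three, -Matrix.cons_vecMul] using e
    have e1 : ((g⁻¹).1 *ᵥ ![j, i, 0]) 2 = 0 := by
      rw [← Matrix.dotProduct_mulVec] at e0; simpa [dotProduct, Fin.sum_univ_three] using e0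
    have gg : g.1 *ᵥ ((g⁻¹).1 *ᵥ ![j, i, 0]) = ![j, i, 0] := by
      rw [Matrix.mulVec_mulVec, ← Matrix.SpecialLinearGroup.coe_mul, mul_inv_cancel, Matrix.SpecialLinearGroup.coe_one, Matrix.one_mulVec]
    refine ⟨i, j, ((g⁻¹).1 *ᵥ ![j, i, 0]) 1, ((g⁻¹).1 *ᵥ ![j, i, 0]) 0,
      by simpa [L3.t_mul, L3.t_one, -not_and, not_and_or] using n.symm, ?_, ?_⟩
    · simp only [L3.t_mul, Ne, L3.t_one, add_zero, zero_add, mul_zero, true_and]
      rintro ⟨b, c⟩
      have : (g⁻¹).1 *ᵥ ![j, i, 0] = 0 := funext fun k => by fin_cases k; exacts [c, b, e1]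
      rw [this, Matrix.mulVec_zero] at gg
      exact n.elim (· (congrFun gg 0).symm) (· (congrFun gg 1).symm)
    simp only [L3.t_mul, add_zero, zero_add, mul_zero]
    refine L3.comm g (u := ![j, i, 0]) (φ := ![0, 0, 1]) (w := (g⁻¹).1 *ᵥ ![j, i, 0]) (ψ := ![0, 0, 1] ᵥ* (g⁻¹).1)
      (by ext a b; fin_cases a <;> fin_cases b <;> simp [L3.ut]) ?_ (by rw [gg]; simp [dotProduct, Fin.sum_univ_three]) e0
    rw [Matrix.vecMul_vecMul, ← Matrix.SpecialLinearGroup.coe_mul, inv_mul_cancel, Matrix.SpecialLinearGroup.coe_one, Matrix.vecMul_one]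
    generalize (g⁻¹).1 *ᵥ ![j, i, 0] = y at e1
    ext a b; fin_cases a <;> fin_cases b <;> simp [L3.ut, e1]

end Cfsg.Lib.Q5C
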