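import Cfsg.Agent.Lib.Q5C.Co

/-!
# Q5 branch C: 2-groups centralising an involution
-/

set_option autoImplicit false

namespace Cfsg.Lib.Q5C

open scoped MatrixGroups Matrix commutatorElement
open Cfsg.Geo Cfsg.Lib.Asch Cfsg.Lib.Linear Cfsg.Lib.Q5 Module

variable {K : Type*} [Field K] [CharP K 2] {P T : Subgroup (G5 K)} {z g h f x y : G5 K}
  {a b c p₁ p₂ p₃ u₁ u₂ u₃ a' b' c' p₁' p₂' p₃' u₁' u₂' u₃' : K}

omit [CharP K 2] in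
theorem el_mul : el a b c p₁ p₂ p₃ u₁ u₂ u₃ * el a' b' c' p₁' p₂' p₃' u₁' u₂' u₃' =
    el (a + a') (b + b') (c + c' + a * b') (p₁ + p₁' + u₁ * a' + b * p₃') (p₂ + p₂' + u₂ * a' + a * p₁' + c * p₃')
      (p₃ + p₃' + u₃ * a') (u₁ + u₁' + b * u₃') (u₂ + u₂' + a * u₁' + c * u₃') (u₃ + u₃') := by
  ext i j
  fin_cases i <;> fin_cases j <;> simp [el, Matrix.mul_apply, Fin.sum_univ_five] <;> ring

omit [CharP K 2] in
theorem el_inj (e : el a b c p₁ p₂ p₃ u₁ u₂ u₃ = el a' b' c' p₁' p₂' p₃' u₁' u₂' u₃') : a = a' ∧ b = b' ∧ c = c' ∧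
    p₁ = p₁' ∧ p₂ = p₂' ∧ p₃ = p₃' ∧ u₁ = u₁' ∧ u₂ = u₂' ∧ u₃ = u₃' :=
  have k := fun i j => congrFun (congrFun e i) j
  ⟨k 1 0, k 2 4, k 3 4, k 2 0, k 3 0, k 4 0, k 2 1, k 3 1, k 4 1⟩

omit [CharP K 2] in
theorem el_one : (1 : G5 K).1 = el 0 0 0 0 0 0 0 0 0 := by
  ext i j
  fin_cases i <;> fin_cases j <;> simp [el]

omit [CharP K 2] in
/-- Elements that differ in the entry `(y₂, e₁)` only are equal. -/
theorem NT.eq_el (n : NT P) (hg : g ∈ P) (hh : h ∈ P) (eg : g.1 = el a b c p₁ p₂ p₃ u₁ u₂ u₃)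
    (eh : h.1 = el a' b' c' p₁' p₂' p₃' u₁' u₂' u₃') (e : a = a' ∧ b = b' ∧ c = c' ∧
    p₁ = p₁' ∧ p₃ = p₃' ∧ u₁ = u₁' ∧ u₂ = u₂' ∧ u₃ = u₃') : g = h := by
  obtain ⟨rfl, rfl, rfl, rfl, rfl, rfl, rfl, rfl⟩ := e
  have : g.1 - h.1 = Matrix.vecMulVec ![0, 0, 0, 1, 0] ![p₂ - p₂', 0, 0, 0, 0] := by
    rw [eg, eh]
    ext i j
    fin_cases i <;> fin_cases j <;> simp [el, Matrix.vecMulVec_apply]
  exact n.eq hg hh (this ▸ Matrix.rank_vecMulVec_le _ _)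

theorem NT.zero_a (n : NT P) (hg : g ∈ P) (eg : g.1 = el 0 b c p₁ p₂ p₃ u₁ u₂ u₃) :
    b = 0 ∧ c = 0 ∨ p₃ = 0 ∧ u₃ = 0 := by
  have : nn (g * g) = Matrix.vecMulVec ![0, 0, b, c, 0] ![p₃, u₃, 0, 0, 0] := by
    rw [nn, Units.val_mul, eg, el_mul]
    ext i j
    fin_cases i <;> fin_cases j <;> simp [el, Matrix.vecMulVec_apply, CharTwo.add_self_eq_zero]
  rw [nn_eq_zero.2 (n _ (mul_mem hg hg) (this ▸ Matrix.rank_vecMulVec_le _ _))] at this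
  have k := fun i j => congrFun (congrFun this i) j
  have := k 2 0; have := k 2 1; have := k 3 0; have := k 3 1
  simp only [Matrix.vecMulVec_apply, Matrix.zero_apply, Matrix.cons_val, zero_eq_mul] at *
  tauto

/-- Standard position. -/
structure Std (P T : Subgroup (G5 K)) (z : G5 K) : Prop where
  n : NT P
  le : T ≤ P
  ez : z.1 = el 0 0 0 1 0 0 0 1 0
  fm : ∀ g ∈ T, Fm g.1

namespace Std

variable (S : Std P T z)
include S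

omit [CharP K 2] in
theorem sm_iff (eg : g.1 = el a b c p₁ p₂ p₃ u₁ u₂ u₃) : Sm g z ↔ a = 0 := by
  rw [Sm, nn, nn, eg, S.ez]
  refine ⟨fun e => by simpa [el, Matrix.mul_apply, Fin.sum_univ_five] using congrFun (congrFun e.1 3) 0, ?_⟩
  rintro rfl
  constructor <;> ext i j <;> fin_cases i <;> fin_cases j <;> simp [el, Matrix.mul_apply, Fin.sum_univ_five]

theorem typ : (∀ g ∈ T, g.1 2 4 = 0 ∧ (g.1 1 0 = 0 → g.1 3 4 = 0)) ∨ ∀ g ∈ T, g.1 4 1 = 0 ∧ (g.1 1 0 = 0 → g.1 4 0 = 0) := by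
  by_cases hA : ∀ m ∈ T, m.1 1 0 = 0 → m.1 2 4 = 0 ∧ m.1 3 4 = 0
  · refine .inl fun g hg => ⟨?_, fun e => (hA g hg e).2⟩
    obtain ⟨a, b, c, p₁, p₂, p₃, u₁, u₂, u₃, eg⟩ := S.fm g hg
    have h1 := hA g hg
    have h2 := hA _ (mul_mem hg hg)
    rw [Units.val_mul, eg, el_mul] at h2
    rw [eg] at h1 ⊢
    simp only [el, Matrix.of_apply, Matrix.cons_val, CharTwo.add_self_eq_zero, zero_add, mul_eq_zero] at *
    tauto
  have hB : ∀ m ∈ T, m.1 1 0 = 0 → m.1 4 0 = 0 ∧ m.1 4 1 = 0 := fun g hg e => by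
    push Not at hA
    obtain ⟨m, hm, e1, e2⟩ := hA
    obtain ⟨a, b, c, p₁, p₂, p₃, u₁, u₂, u₃, eg⟩ := S.fm g hg
    obtain ⟨a', b', c', p₁', p₂', p₃', u₁', u₂', u₃', em⟩ := S.fm m hm
    rw [eg] at e ⊢
    rw [em] at e1 e2
    obtain rfl : a = 0 := e
    obtain rfl : a' = 0 := e1
    replace e2 : ¬ (b' = 0 ∧ c' = 0) := fun e => e2 e.1 e.2
    obtain ⟨rfl, rfl⟩ := (S.n.zero_a (S.le hm) em).resolve_left e2
    refine (S.n.zero_a (S.le hg) eg).elim ?_ id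
    rintro ⟨rfl, rfl⟩
    have := S.n.zero_a (S.le (mul_mem hg hm)) (by rw [Units.val_mul, eg, em, el_mul, add_zero])
    simp only [zero_add, add_zero, zero_mul, mul_zero] at this
    exact this.resolve_left e2
  refine .inr fun g hg => ⟨?_, fun e => (hB g hg e).1⟩
  obtain ⟨a, b, c, p₁, p₂, p₃, u₁, u₂, u₃, eg⟩ := S.fm g hg
  have h1 := hB g hg
  have h2 := hB _ (mul_mem hg hg)
  rw [Units.val_mul, eg, el_mul] at h2
  rw [eg] at h1 ⊢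
  simp only [el, Matrix.of_apply, Matrix.cons_val, CharTwo.add_self_eq_zero, zero_add, mul_eq_zero] at *
  tauto

omit S [CharP K 2] in
theorem add_comm' {φ : G5 K → K} (hφ : ∀ g ∈ T, ∀ h ∈ T, φ (g * h) = φ g + φ h) (hg : g ∈ T) (hh : h ∈ T) :
    φ ⁅g, h⁆ = 0 := by
  have e : ⁅g, h⁆ * (h * g) = g * h := by rw [commutatorElement_def]; group
  have := hφ _ (T.commutator_le_self (Subgroup.commutator_mem_commutator hg hh)) _ (mul_mem hh hg)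
  rw [e, hφ g hg h hh, hφ h hh g hg] at this
  linear_combination -this

omit [CharP K 2] in
theorem add_ent {i j : Fin 5} (e : ∀ g ∈ T, ∀ h ∈ T, ∀ a b c p₁ p₂ p₃ u₁ u₂ u₃ a' b' c' p₁' p₂' p₃' u₁' u₂' u₃',
    g.1 = el a b c p₁ p₂ p₃ u₁ u₂ u₃ → h.1 = el a' b' c' p₁' p₂' p₃' u₁' u₂' u₃' → (el a b c p₁ p₂ p₃ u₁ u₂ u₃ *
      el a' b' c' p₁' p₂' p₃' u₁' u₂' u₃') i j = el a b c p₁ p₂ p₃ u₁ u₂ u₃ i j + el a' b' c' p₁' p₂' p₃' u₁' u₂' u₃' i j)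
    (hg : g ∈ T) (hh : h ∈ T) : (⁅g, h⁆ : G5 K).1 i j = 0 :=
  add_comm' (φ := fun g => g.1 i j) (fun g hg h hh => by
    obtain ⟨a, b, c, p₁, p₂, p₃, u₁, u₂, u₃, eg⟩ := S.fm g hg
    obtain ⟨a', b', c', p₁', p₂', p₃', u₁', u₂', u₃', eh⟩ := S.fm h hh
    simp only [Units.val_mul]
    rw [eg, eh]
    exact e g hg h hh _ _ _ _ _ _ _ _ _ _ _ _ _ _ _ _ _ _ eg eh) hg hh

theorem sm_sq (hg : g ∈ T) : Sm (g * g) z := by
  obtain ⟨a, b, c, p₁, p₂, p₃, u₁, u₂, u₃, eg⟩ := S.fm g hg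
  exact (S.sm_iff (by rw [Units.val_mul, eg, el_mul])).2 (CharTwo.add_self_eq_zero a)

omit [CharP K 2] in
theorem comm_a (hg : g ∈ T) (hh : h ∈ T) : (⁅g, h⁆ : G5 K).1 1 0 = 0 :=
  S.add_ent (fun _ _ _ _ _ _ _ _ _ _ _ _ _ _ _ _ _ _ _ _ _ _ _ _ => by rw [el_mul]; rfl) hg hh

omit [CharP K 2] in
theorem sm_comm (hg : g ∈ T) (hh : h ∈ T) : Sm ⁅g, h⁆ z := by
  obtain ⟨a, b, c, p₁, p₂, p₃, u₁, u₂, u₃, e⟩ := S.fm _ (T.commutator_le_self (Subgroup.commutator_mem_commutator hg hh))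
  have := S.comm_a hg hh
  rw [e] at this
  exact (S.sm_iff e).2 this

theorem cls (hg : g ∈ T) (hh : h ∈ T) (hf : f ∈ T) : f * ⁅g, h⁆ = ⁅g, h⁆ * f := by
  have hk := T.commutator_le_self (Subgroup.commutator_mem_commutator hg hh)
  obtain ⟨a, b, c, p₁, p₂, p₃, u₁, u₂, u₃, ef⟩ := S.fm f hf
  obtain ⟨a', b', c', p₁', p₂', p₃', u₁', u₂', u₃', ek⟩ := S.fm _ hk
  have e1 := S.comm_a hg hh
  have e2 : (⁅g, h⁆ : G5 K).1 2 4 = 0 :=
    S.add_ent (fun _ _ _ _ _ _ _ _ _ _ _ _ _ _ _ _ _ _ _ _ _ _ _ _ => by rw [el_mul]; rfl) hg hh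
  have e3 : (⁅g, h⁆ : G5 K).1 4 1 = 0 :=
    S.add_ent (fun _ _ _ _ _ _ _ _ _ _ _ _ _ _ _ _ _ _ _ _ _ _ _ _ => by rw [el_mul]; rfl) hg hh
  have e4 : (⁅g, h⁆ : G5 K).1 2 1 = 0 :=
    S.add_ent (fun x hx y hy a b c p₁ p₂ p₃ u₁ u₂ u₃ a' b' c' p₁' p₂' p₃' u₁' u₂' u₃' ex ey => by
      have : b * u₃' = 0 := mul_eq_zero.2 (S.typ.imp (fun e => by have := (e x hx).1; rwa [ex] at this)
        fun e => by have := (e y hy).1; rwa [ey] at this)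
      rw [el_mul, this, add_zero]; rfl) hg hh
  have e5 : b = 0 ∧ c' = 0 ∨ u₃ = 0 ∧ p₃' = 0 := S.typ.imp
    (fun e => ⟨(by have := (e f hf).1; rwa [ef] at this), by have := (e _ hk).2 e1; rwa [ek] at this⟩)
    fun e => ⟨(by have := (e f hf).1; rwa [ef] at this), by have := (e _ hk).2 e1; rwa [ek] at this⟩
  rw [ek] at e1 e2 e3 e4
  obtain rfl : a' = 0 := e1
  obtain rfl : b' = 0 := e2
  obtain rfl : u₃' = 0 := e3
  obtain rfl : u₁' = 0 := e4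
  refine S.n.eq_el (S.le (mul_mem hf hk)) (S.le (mul_mem hk hf)) (by rw [Units.val_mul, ef, ek, el_mul])
    (by rw [Units.val_mul, ef, ek, el_mul]) ?_
  rcases e5 with ⟨rfl, rfl⟩ | ⟨rfl, rfl⟩ <;> refine ⟨?_, ?_, ?_, ?_, ?_, ?_, ?_, ?_⟩ <;> ring

theorem inv_comm (hx : x ∈ T) (hy : y ∈ T) (x2 : x * x = 1) (y2 : y * y = 1) : Sm x z ∨ Sm y z ∨ x * y = y * x := by
  obtain ⟨a, b, c, p₁, p₂, p₃, u₁, u₂, u₃, ex⟩ := S.fm x hx
  obtain ⟨a', b', c', p₁', p₂', p₃', u₁', u₂', u₃', ey⟩ := S.fm y hy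
  have k : ∀ {x : G5 K} {a b c p₁ p₂ p₃ u₁ u₂ u₃ : K}, x.1 = el a b c p₁ p₂ p₃ u₁ u₂ u₃ → x * x = 1 → a ≠ 0 →
      b = 0 ∧ u₁ = 0 ∧ u₃ = 0 := fun {x a b c p₁ p₂ p₃ u₁ u₂ u₃} ex x2 ha => by
    have := congrArg Units.val x2
    rw [Units.val_mul, ex, el_mul, el_one] at this
    obtain ⟨-, -, e1, e2, -, e3, -⟩ := el_inj this
    simp only [CharTwo.add_self_eq_zero, zero_add, mul_eq_zero, ha, false_or, or_false] at e1 e2 e3
    subst e1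
    exact ⟨rfl, by simpa [ha] using e2, e3⟩
  rw [S.sm_iff ex, S.sm_iff ey, or_iff_not_imp_left, or_iff_not_imp_left]
  intro ha ha'
  obtain ⟨rfl, rfl, rfl⟩ := k ex x2 ha
  obtain ⟨rfl, rfl, rfl⟩ := k ey y2 ha'
  refine S.n.eq_el (S.le (mul_mem hx hy)) (S.le (mul_mem hy hx)) (by rw [Units.val_mul, ex, ey, el_mul])
    (by rw [Units.val_mul, ex, ey, el_mul]) ?_
  refine ⟨?_, ?_, ?_, ?_, ?_, ?_, ?_, ?_⟩ <;> ring

omit [CharP K 2] in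
theorem kr_iff {v : Fin 5 → K} : v ∈ kr z ↔ v 0 = 0 ∧ v 1 = 0 := by
  rw [mem_kr, nn, S.ez]
  refine ⟨fun e => ⟨by simpa [el, Matrix.mulVec, dotProduct, Fin.sum_univ_five] using congrFun e 2,
    by simpa [el, Matrix.mulVec, dotProduct, Fin.sum_univ_five] using congrFun e 3⟩, fun e => ?_⟩
  ext i
  fin_cases i <;> simp [el, Matrix.mulVec, dotProduct, Fin.sum_univ_five, e.1, e.2]

omit [CharP K 2] in
theorem im_iff {v : Fin 5 → K} : v ∈ im z ↔ v 0 = 0 ∧ v 1 = 0 ∧ v 4 = 0 := by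
  rw [mem_im, nn, S.ez]
  constructor
  · rintro ⟨x, rfl⟩
    simp [el, Matrix.mulVec, dotProduct, Fin.sum_univ_five]
  · refine fun e => ⟨![v 2, v 3, 0, 0, 0], ?_⟩
    ext i
    fin_cases i <;> simp [el, Matrix.mulVec, dotProduct, Fin.sum_univ_five, e.1, e.2.1, e.2.2]

theorem loc_type : ((∀ m ∈ T, Sm m z → kr z ≤ kr m) ∧ ∃ y ∈ kr z, ∀ g ∈ T, ∀ v ∈ kr z, ∃ c : K, nn g *ᵥ v = c • y) ∨
    ((∀ m ∈ T, Sm m z → im m ≤ im z) ∧ ∃ H : Submodule K (Fin 5 → K), 4 ≤ finrank K H ∧ im z ≤ H ∧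
      ∀ g ∈ T, ∀ v ∈ H, nn g *ᵥ v ∈ im z) := by
  refine S.typ.imp (fun e => ⟨fun m hm s v hv => ?_, ![0, 0, 0, 1, 0], S.kr_iff.2 ⟨rfl, rfl⟩, fun g hg v hv => ?_⟩)
    fun e => ⟨fun m hm s => ?_, LinearMap.ker (LinearMap.proj 0), ?_, fun v hv => (S.im_iff.1 hv).1, fun g hg v hv => ?_⟩
  · obtain ⟨a, b, c, p₁, p₂, p₃, u₁, u₂, u₃, em⟩ := S.fm m hm
    obtain rfl := (S.sm_iff em).1 s
    obtain ⟨e1, e2⟩ := e m hm
    rw [em] at e1 e2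
    obtain rfl : b = 0 := e1
    obtain rfl : c = 0 := e2 rfl
    rw [S.kr_iff] at hv
    rw [mem_kr, nn, em]
    ext i
    fin_cases i <;> simp [el, Matrix.mulVec, dotProduct, Fin.sum_univ_five, hv.1, hv.2]
  · obtain ⟨a, b, c, p₁, p₂, p₃, u₁, u₂, u₃, eg⟩ := S.fm g hg
    obtain ⟨e1, -⟩ := e g hg
    rw [eg] at e1
    obtain rfl : b = 0 := e1
    rw [S.kr_iff] at hv
    refine ⟨a * v 2 + c * v 4, ?_⟩
    rw [nn, eg]
    ext i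
    fin_cases i <;> simp [el, Matrix.mulVec, dotProduct, Fin.sum_univ_five, hv.1, hv.2]
  · obtain ⟨a, b, c, p₁, p₂, p₃, u₁, u₂, u₃, em⟩ := S.fm m hm
    obtain rfl := (S.sm_iff em).1 s
    obtain ⟨e1, e2⟩ := e m hm
    rw [em] at e1 e2
    obtain rfl : u₃ = 0 := e1
    obtain rfl : p₃ = 0 := e2 rfl
    rintro _ ⟨v, rfl⟩
    rw [S.im_iff, nn, em]
    simp [el, dotProduct, Fin.sum_univ_five]
  · have := (LinearMap.proj (R := K) (φ := fun _ : Fin 5 => K) 0).finrank_range_add_finrank_ker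
    have h1 := (LinearMap.range (LinearMap.proj (R := K) (φ := fun _ : Fin 5 => K) 0)).finrank_le
    rw [finrank_self] at h1
    rw [finrank_fin_fun] at this
    omega
  · obtain ⟨a, b, c, p₁, p₂, p₃, u₁, u₂, u₃, eg⟩ := S.fm g hg
    obtain ⟨e1, -⟩ := e g hg
    rw [eg] at e1
    obtain rfl : u₃ = 0 := e1
    replace hv : v 0 = 0 := hv
    rw [S.im_iff, nn, eg]
    simp [el, Matrix.mulVec, dotProduct, Fin.sum_univ_five, hv]

end Std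

section
variable (n : NT P) (hP : T ≤ P) [Finite T] (hT : IsPGroup 2 T) (hz : z ∈ P) (z2 : z * z = 1) (z1 : z ≠ 1)
  (cz : ∀ g ∈ T, g * z = z * g)
include n hP hT hz z2 z1 cz

theorem std : ∃ k : G5 K, Std (P.map (MulAut.conj k).toMonoidHom) (T.map (MulAut.conj k).toMonoidHom) (k * z * k⁻¹) := by
  obtain ⟨k, e1, e2⟩ := coord hT z2 (n.rank hz z2 z1) cz
  exact ⟨k, n.conj k, Subgroup.map_mono hP, e1, by rintro _ ⟨g, hg, rfl⟩; exact e2 g hg⟩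

theorem sm_sq (hg : g ∈ T) : Sm (g * g) z := by
  obtain ⟨k, S⟩ := std n hP hT hz z2 z1 cz
  have := S.sm_sq ⟨g, hg, rfl⟩
  rw [← map_mul] at this
  exact .of_conj k this

theorem sm_comm (hg : g ∈ T) (hh : h ∈ T) : Sm ⁅g, h⁆ z := by
  obtain ⟨k, S⟩ := std n hP hT hz z2 z1 cz
  have := S.sm_comm ⟨g, hg, rfl⟩ ⟨h, hh, rfl⟩
  rw [← map_commutatorElement] at this
  exact .of_conj k this

theorem cls (hg : g ∈ T) (hh : h ∈ T) (hf : f ∈ T) : f * ⁅g, h⁆ = ⁅g, h⁆ * f := by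
  obtain ⟨k, S⟩ := std n hP hT hz z2 z1 cz
  have := S.cls ⟨g, hg, rfl⟩ ⟨h, hh, rfl⟩ ⟨f, hf, rfl⟩
  rw [← map_commutatorElement, ← map_mul, ← map_mul] at this
  exact (MulAut.conj k).injective this

theorem inv_comm (hx : x ∈ T) (hy : y ∈ T) (x2 : x * x = 1) (y2 : y * y = 1) : Sm x z ∨ Sm y z ∨ x * y = y * x := by
  obtain ⟨k, S⟩ := std n hP hT hz z2 z1 cz
  have := S.inv_comm ⟨x, hx, rfl⟩ ⟨y, hy, rfl⟩ (by rw [← map_mul, x2, map_one]) (by rw [← map_mul, y2, map_one])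
  rw [← map_mul, ← map_mul] at this
  exact this.imp (.of_conj k) (.imp (.of_conj k) fun e => (MulAut.conj k).injective e)

theorem loc_type : ((∀ m ∈ T, Sm m z → kr z ≤ kr m) ∧ ∃ y ∈ kr z, ∀ g ∈ T, ∀ v ∈ kr z, ∃ c : K, nn g *ᵥ v = c • y) ∨
    ((∀ m ∈ T, Sm m z → im m ≤ im z) ∧ ∃ H : Submodule K (Fin 5 → K), 4 ≤ finrank K H ∧ im z ≤ H ∧
      ∀ g ∈ T, ∀ v ∈ H, nn g *ᵥ v ∈ im z) := by
  obtain ⟨k, S⟩ := std n hP hT hz z2 z1 cz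
  have b : ∀ D, act k⁻¹ (act k D) = D := fun D => by rw [← act_mul, inv_mul_cancel, act_one]
  have a : ∀ g v, k⁻¹.1 *ᵥ (nn (k * g * k⁻¹) *ᵥ (k.1 *ᵥ v)) = nn g *ᵥ v := fun g v => by
    simp only [nn_conj, Matrix.mulVec_mulVec, ← mul_assoc, Units.inv_mul, one_mul]
    rw [mul_assoc, Units.inv_mul, mul_one]
  refine S.loc_type.imp (fun ⟨e1, y, hy, e2⟩ => ⟨fun m hm s => ?_, k⁻¹.1 *ᵥ y, mem_act.1 (kr_conj k z ▸ hy),
    fun g hg v hv => ?_⟩) fun ⟨e1, H, h1, h2, e2⟩ => ⟨fun m hm s => ?_, act k⁻¹ H, h1.trans_eq (finrank_act k⁻¹ H).symm, ?_,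
      fun g hg v hv => ?_⟩
  · have := act_mono k⁻¹ (e1 (k * m * k⁻¹) ⟨m, hm, rfl⟩ (s.conj k))
    rwa [kr_conj, kr_conj, b, b] at this
  · obtain ⟨d, e⟩ := e2 (k * g * k⁻¹) ⟨g, hg, rfl⟩ _ (kr_conj k z ▸ app_mem_act hv)
    exact ⟨d, by rw [← a, e, Matrix.mulVec_smul]⟩
  · have := act_mono k⁻¹ (e1 (k * m * k⁻¹) ⟨m, hm, rfl⟩ (s.conj k))
    rwa [im_conj, im_conj, b, b] at this
  · have := act_mono k⁻¹ h2
    rwa [im_conj, b] at this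
  · have := e2 (k * g * k⁻¹) ⟨g, hg, rfl⟩ _ (inv_inv k ▸ mem_act.1 hv)
    rwa [im_conj, mem_act, a] at this

end

/-- Two involutions that generate a dihedral group of order dividing eight. -/
theorem pair [Finite P] (n : NT P) (hz : z ∈ P) (z2 : z * z = 1) (z1 : z ≠ 1) (hx : x ∈ P) (hy : y ∈ P) (x2 : x * x = 1)
    (y2 : y * y = 1) (cx : x * z = z * x) (cy : y * z = z * y) (e : (x * y) ^ 4 = 1) :
    Sm ⁅x, y⁆ z ∧ (Sm x z ∨ Sm y z ∨ x * y = y * x) := by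
  have pg : ∀ {g : G5 K}, g ^ 4 = 1 → IsPGroup 2 (Subgroup.zpowers g) := by
    rintro g e ⟨_, m, rfl⟩
    exact ⟨2, Subtype.ext (show (g ^ m) ^ 4 = 1 by rw [← zpow_natCast, zpow_comm, zpow_natCast, e, one_zpow])⟩
  have xi : x⁻¹ = x := inv_eq_of_mul_eq_one_right x2
  have yi : y⁻¹ = y := inv_eq_of_mul_eq_one_right y2
  have : Finite (Subgroup.zpowers (x * y) : Set (G5 K)) :=
    .of_injective _ (Subgroup.inclusion_injective (Subgroup.zpowers_le.2 (mul_mem hx hy)))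
  have hT : IsPGroup 2 ↥(Subgroup.zpowers x ⊔ Subgroup.zpowers (x * y)) :=
    (pg (by rw [show 4 = 2 * 2 from rfl, pow_mul, sq x, x2, one_pow])).to_sup_of_normal_right' (pg e)
      (Subgroup.zpowers_le.2 (Subgroup.mem_normalizer_fintype ?_))
  · have hP : Subgroup.zpowers x ⊔ Subgroup.zpowers (x * y) ≤ P :=
      sup_le (Subgroup.zpowers_le.2 hx) (Subgroup.zpowers_le.2 (mul_mem hx hy))
    have : Finite ↥(Subgroup.zpowers x ⊔ Subgroup.zpowers (x * y)) := .of_injective _ (Subgroup.inclusion_injective hP)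
    have mx := Subgroup.mem_sup_left (T := Subgroup.zpowers (x * y)) (Subgroup.mem_zpowers x)
    have my : y ∈ Subgroup.zpowers x ⊔ Subgroup.zpowers (x * y) :=
      (mul_mem_cancel_left mx).1 (Subgroup.mem_sup_right (Subgroup.mem_zpowers _))
    have c : Subgroup.zpowers x ⊔ Subgroup.zpowers (x * y) ≤ Subgroup.centralizer {z} :=
      sup_le (Subgroup.zpowers_le.2 (Subgroup.mem_centralizer_singleton_iff.2 cx)) (Subgroup.zpowers_le.2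
        (mul_mem (Subgroup.mem_centralizer_singleton_iff.2 cx) (Subgroup.mem_centralizer_singleton_iff.2 cy)))
    have c' := fun g hg => Subgroup.mem_centralizer_singleton_iff.1 (c (x := g) hg)
    exact ⟨sm_comm n hP hT hz z2 z1 c' mx my, inv_comm n hP hT hz z2 z1 c' mx my x2 y2⟩
  · rintro _ ⟨m, rfl⟩
    refine ⟨-m, ?_⟩
    change (x * y) ^ (-m) = x * (x * y) ^ m * x⁻¹
    rw [← conj_zpow, zpow_neg, ← inv_zpow, mul_inv_rev, xi, yi, ← mul_assoc, x2, one_mul]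

/-- A 2-subgroup has class at most two. -/
theorem class_two (n : NT P) (hP : T ≤ P) [Finite T] (hT : IsPGroup 2 T) (hg : g ∈ T) (hh : h ∈ T) (hf : f ∈ T) :
    f * ⁅g, h⁆ = ⁅g, h⁆ * f := by
  rcases T.bot_or_nontrivial with rfl | _
  · rw [Subgroup.mem_bot.1 hf, one_mul, mul_one]
  have := hT.center_nontrivial
  obtain ⟨⟨z, hz⟩, e⟩ := exists_prime_orderOf_dvd_card' (G := Subgroup.center T) 2
    ((hT.to_subgroup _).card_eq_or_dvd.resolve_left Finite.one_lt_card.ne')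
  rw [← Subgroup.orderOf_coe, ← Subgroup.orderOf_coe] at e
  exact cls n hP hT (hP z.2) (by rw [← sq, ← e, pow_orderOf_eq_one]) (fun c => by simp [c] at e)
    (fun g hg => congrArg Subtype.val (Subgroup.mem_center_iff.1 hz ⟨g, hg⟩)) hg hh hf

end Cfsg.Lib.Q5C
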