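import Cfsg.Agent.Lib.Q5C.Fam
import Cfsg.Agent.Lib.Q5C.Loc

/-!
# Q5 branch C: groups of rank one
-/

set_option autoImplicit false

namespace Cfsg.Lib.Q5C

open scoped MatrixGroups Matrix commutatorElement
open Cfsg.Geo Cfsg.Lib.Asch Cfsg.Lib.Linear Cfsg.Lib.Q5 Module

variable {K : Type*} [Field K] [CharP K 2] {P U : Subgroup (G5 K)} {z w : G5 K}

omit [CharP K 2] in
theorem ex_mid {A B : Submodule K (Fin 5 → K)} (h : A ≤ B) {d : ℕ} (h1 : finrank K A ≤ d) (h2 : d ≤ finrank K B) :
    ∃ D, A ≤ D ∧ D ≤ B ∧ finrank K D = d := by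
  induction d, h1 using Nat.le_induction with
  | base => exact ⟨A, le_rfl, h, rfl⟩
  | succ d _ ih =>
    obtain ⟨D, a, b, c⟩ := ih (by omega)
    obtain ⟨v, hv, n⟩ := SetLike.not_le_iff_exists.1 fun e : B ≤ D => by
      have := Submodule.finrank_mono e
      omega
    exact ⟨D ⊔ K ∙ v, le_sup_of_le_left a, sup_le b ((Submodule.span_singleton_le_iff_mem _ _).2 hv),
      c ▸ Submodule.finrank_sup_span_singleton n⟩

omit [CharP K 2] in
theorem act_inv {g : G5 K} {D : Submodule K (Fin 5 → K)} : act g (act g⁻¹ D) = D := by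
  rw [← act_mul, mul_inv_cancel, act_one]

/-- Call `b` good if `b z b⁻¹ = v * v =: m`, `v ∈ U`; then `m ∈ U`, `Sm m z` (`sm_sq`).  Cases of `loc_type`.
(A) `Y = kr z`; good `b` has `Y ≤ kr m = act b Y`, so `act b Y = Y`; `act u Y = Y` for `u ∈ U`.  So for every `g ∈ P`:
`act g Y = Y` or `Y ⊓ act g Y = act u R`, `R = Y ⊓ act w Y`.  If `dim R ≥ 2`: `fam` with `D = Y`, `k = 2`.  Else choose `D` of
dimension 2 with `R ⊔ K y ≤ D ≤ Y` (`Submodule.exists_le_finrank_eq`-like, or add vectors by hand); `act u R ≤ D`.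
`fam` with `k = 1`: if `act g Y = Y` then `D, act g D ≤ Y` meet; else `⊥ ≠ Y ⊓ act g Y` (`inf_ge`) lies in `D` and, by the
same for `g⁻¹`, in `act g D`.
(B) `W = im z`; good `b` has `act b W = im m ≤ W`.  `R = W ⊔ act w W`; if `dim R ≤ 3` then `dim (W ⊓ act w W) ≥ 1`, `fam` with
`D = W`, `k = 1`.  Else choose `D` of dimension 3 with `W ≤ D ≤ R ⊓ H` (`dim R = 4 ≤ dim H`, `inf_ge`); `act u D = D` for
`u ∈ U`, so `D ≤ act u R = W ⊔ act g W` whenever `act g W ≠ W`.  `fam` with `k = 2`: `act g W = W ≤ D ⊓ act g D`, or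
`D ⊔ act g D ≤ W ⊔ act g W` has dimension `≤ 4`. -/
theorem rank_one (n : NT P) (hi : Irr P) (hU : U ≤ P) [Finite U] (pg : IsPGroup 2 U) (hz : z ∈ P) (z2 : z * z = 1)
    (z1 : z ≠ 1) (c : ∀ u ∈ U, u * z = z * u) (br : ∀ g ∈ P, (∃ v ∈ U, g * z * g⁻¹ = v * v) ∨
      ∃ u ∈ U, ∃ b, (∃ v ∈ U, b * z * b⁻¹ = v * v) ∧ g = u * w * b) : False := by
  have st : ∀ {Y : Submodule K (Fin 5 → K)}, (∀ b, ∀ v ∈ U, b * z * b⁻¹ = v * v → act b Y = Y) →
      ∀ g ∈ P, act g Y = Y ∨ ∃ u ∈ U, act g Y = act u (act w Y) := fun gd g hg =>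
    (br g hg).imp (fun ⟨v, hv, e⟩ => gd g v hv e) fun ⟨u, hu, b, ⟨v, hv, e⟩, q⟩ =>
      ⟨u, hu, by rw [q, act_mul, act_mul, gd b v hv e]⟩
  have iv : ∀ {g : G5 K} {Y : Submodule K (Fin 5 → K)}, act g⁻¹ Y = Y → act g Y = Y := fun {g Y} e => by
    conv_lhs => rw [← e, act_inv]
  have dY := n.fin_kr hz z2 z1
  have dW := n.fin_im hz z2 z1
  rcases loc_type n hU pg hz z2 z1 c with ⟨hA, y, hy, hA'⟩ | ⟨hB, H, dH, hH, hB'⟩
  · replace st := st (Y := kr z) fun b v hv e => (Submodule.eq_of_le_of_finrank_eq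
      (by rw [← kr_conj, e]; exact hA _ (mul_mem hv hv) (sm_sq n hU pg hz z2 z1 c hv)) (finrank_act b (kr z)).symm).symm
    have ac : ∀ u ∈ U, kr z ⊓ act u (act w (kr z)) = act u (kr z ⊓ act w (kr z)) := fun u hu => by
      rw [act_inf, act_kr (c u hu)]
    by_cases r : 2 ≤ finrank K ↥(kr z ⊓ act w (kr z))
    · refine fam (k := 2) hi dY (by decide) le_rfl fun g hg => ?_
      rcases st g hg with e | ⟨u, hu, e⟩
      · rw [e, inf_idem, dY]; decide
      · rwa [e, ac u hu, finrank_act]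
    obtain ⟨D, a, b, d⟩ := ex_mid (d := 2) (sup_le inf_le_left ((Submodule.span_singleton_le_iff_mem _ _).2 hy) :
        (kr z ⊓ act w (kr z)) ⊔ K ∙ y ≤ kr z) (by
      have := Submodule.finrank_add_le_finrank_add_finrank (kr z ⊓ act w (kr z)) (K ∙ y)
      have := (finrank_span_le_card (R := K) {y}).trans_eq (by simp : _ = 1)
      omega) (by omega)
    have k : ∀ g ∈ P, act g (kr z) = kr z ∨ kr z ⊓ act g (kr z) ≤ D := fun g hg => (st g hg).imp_right <| by
      rintro ⟨u, hu, e⟩
      rw [e, ac u hu]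
      rintro _ ⟨v, hv, rfl⟩
      obtain ⟨t, ht⟩ := hA' u hu v hv.1
      rw [Matrix.mulVecLin_apply, app_eq, ht]
      exact a (Submodule.add_mem_sup hv (Submodule.smul_mem _ _ (Submodule.mem_span_singleton_self _)))
    refine fam (k := 1) hi d le_rfl (by decide) fun g hg => ?_
    by_cases e : act g (kr z) = kr z
    · have := Submodule.finrank_mono (sup_le b (e ▸ act_mono g b : act g D ≤ kr z))
      have := Submodule.finrank_sup_add_finrank_inf_eq D (act g D)
      have := finrank_act g D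
      omega
    · have q := act_mono g ((k _ (inv_mem hg)).resolve_left (mt iv e))
      rw [act_inf, act_inv, inf_comm] at q
      have := Submodule.finrank_mono (le_inf ((k g hg).resolve_left e) q)
      have := inf_ge (kr z) (act g (kr z))
      have := finrank_act g (kr z)
      omega
  · replace st := st (Y := im z) fun b v hv e => Submodule.eq_of_le_of_finrank_eq
      (by rw [← im_conj, e]; exact hB _ (mul_mem hv hv) (sm_sq n hU pg hz z2 z1 c hv)) (finrank_act b (im z))
    by_cases r : 1 ≤ finrank K ↥(im z ⊓ act w (im z))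
    · refine fam (k := 1) hi dW le_rfl (by decide) fun g hg => ?_
      rcases st g hg with e | ⟨u, hu, e⟩
      · rw [e, inf_idem, dW]; decide
      · rwa [e, ← finrank_act u⁻¹, act_inf, act_im (Commute.inv_left (c u hu)), ← act_mul, inv_mul_cancel, act_one]
    obtain ⟨D, a, b, d⟩ := ex_mid (d := 3) (le_inf le_sup_left hH : im z ≤ (im z ⊔ act w (im z)) ⊓ H) (by omega) (by
      have := Submodule.finrank_sup_add_finrank_inf_eq (im z) (act w (im z))
      have := inf_ge (im z ⊔ act w (im z)) H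
      have := finrank_act w (im z)
      omega)
    have k : ∀ g ∈ P, act g (im z) = im z ∨ D ≤ im z ⊔ act g (im z) := fun g hg => (st g hg).imp_right <| by
      rintro ⟨u, hu, e⟩
      have := act_mono u (b.trans inf_le_left)
      rwa [act_sup, act_im (c u hu), ← e, act_eq_of_le fun v hv => ?_] at this
      rw [app_eq]
      exact add_mem hv (a (hB' u hu v (b hv).2))
    refine fam (k := 2) hi d (by decide) le_rfl fun g hg => ?_
    by_cases e : act g (im z) = im z
    · exact dW ▸ Submodule.finrank_mono (le_inf a (e ▸ act_mono g a : im z ≤ act g D))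
    · have q := act_mono g ((k _ (inv_mem hg)).resolve_left (mt iv e))
      rw [act_sup, act_inv, sup_comm] at q
      have := Submodule.finrank_mono (sup_le ((k g hg).resolve_left e) q)
      have := Submodule.finrank_add_le_finrank_add_finrank (im z) (act g (im z))
      have := Submodule.finrank_sup_add_finrank_inf_eq D (act g D)
      have := finrank_act g (im z)
      have := finrank_act g D
      omega

end Cfsg.Lib.Q5C
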