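import Cfsg.Agent.Lib.Q5C.Def
import Cfsg.Agent.Lib.J1.Basic
import Cfsg.Agent.Lib.Ree.Inst
import Cfsg.Agent.Lib.Ree.Tori

/-!
# Q5 branch C: automisers of order six in `J₁` and the Ree groups
-/

set_option autoImplicit false

namespace Cfsg.Lib.Q5C

open scoped MatrixGroups Matrix commutatorElement

open Subgroup

variable {X : Type*} [Group X]

theorem six_cz (x : X) : centralizer (zpowers x : Set X) = centralizer {x} := by rw [zpowers_eq_closure, centralizer_closure]

theorem six_nc [Finite X] (x : X) : Nat.card (normalizer (zpowers x : Set X)) =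
    Nat.card (zpowers x).normalizerMonoidHom.range * Nat.card (centralizer {x}) := by
  rw [← (zpowers x).normalizerMonoidHom.ker.card_mul_index, index_ker, mul_comm, normalizerMonoidHom_ker,
    Nat.card_congr (subgroupOfEquivOfLe (centralizer_le_normalizer _)).toEquiv, six_cz]

/-- `φ = (zpowers x).normalizerMonoidHom : N →* MulAut (zpowers x)` has kernel `C(x)` (`normalizerMonoidHom_ker`,
`centralizer_zpowers`-type lemma), the target is cyclic (`IsCyclic.mulAutMulEquiv`, `ZMod.isCyclic_units_prime`), so the range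
is cyclic of order 6, generated by `φ g`.  `g x g⁻¹ = x ^ m`; `g ^ j x g⁻ʲ = x ^ m ^ j`; if `m ^ j % r = 1` then
`g ^ j ∈ C(x)`, `φ g ^ j = 1`, `6 ∣ j`. -/
theorem six_of [Finite X] {x : X} {r : ℕ} (hr : r.Prime) (h2 : r ≠ 2) (h5 : r ≠ 5) (o : orderOf x = r)
    (h : Nat.card (normalizer (zpowers x : Set X)) = 6 * Nat.card (centralizer {x})) : Six X := by
  have c : Nat.card (zpowers x) = r := (Nat.card_zpowers x).trans o
  have := ZMod.isCyclic_units_prime (c ▸ hr)
  have := isCyclic_of_surjective _ (IsCyclic.mulAutMulEquiv (zpowers x)).symm.surjective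
  obtain ⟨⟨_, g, rfl⟩, hg⟩ := IsCyclic.exists_ofOrder_eq_natCard (α := (zpowers x).normalizerMonoidHom.range)
  rw [Nat.eq_of_mul_eq_mul_right Nat.card_pos ((six_nc x).symm.trans h), ← orderOf_coe] at hg
  obtain ⟨m, hm⟩ := (mem_powers_iff_mem_zpowers (x := x)).2 ((mem_normalizer_iff.1 g.2 x).1 (mem_zpowers x))
  replace hm : g.1 * x * g.1⁻¹ = x ^ m := hm.symm
  have k : ∀ j : ℕ, g.1 ^ j * x * (g.1 ^ j)⁻¹ = x ^ m ^ j := fun j => by
    induction j with
    | zero => simp
    | succ j ih => rw [pow_succ' m, pow_mul, ← hm, conj_pow, ← ih, pow_succ']; group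
  refine ⟨x, g, r, m, hr, h2, h5, o ▸ pow_orderOf_eq_one x, fun e => hr.ne_one (by rw [← o, e, orderOf_one]), hm, fun j j0 j5 e => ?_⟩
  have : (zpowers x).normalizerMonoidHom g ^ j = 1 := by
    rw [← map_pow, ← MonoidHom.mem_ker, normalizerMonoidHom_ker, mem_subgroupOf, coe_pow, six_cz,
      mem_centralizer_singleton_iff, ← mul_inv_eq_iff_eq_mul, k, ← pow_mod_orderOf, o, e, pow_one]
  have := Nat.le_of_dvd j0 (hg ▸ orderOf_dvd_of_pow_eq_one this)
  omega

theorem Six.congr {Y : Type*} [Group Y] (h : Six Y) (e : X ≃* Y) : Six X := by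
  obtain ⟨x, g, r, m, a, b, c, d, x1, k, l⟩ := h
  exact ⟨e.symm x, e.symm g, r, m, a, b, c, by rw [← map_pow, d, map_one], e.symm.map_ne_one_iff.2 x1,
    by rw [← map_pow, ← k, map_mul, map_mul, map_inv], l⟩

/-- `x` of order 19 (Cauchy, `J1.card_J1 = 175560 = 19 * 9240`).  A prime `p ≠ 19` dividing `|C(x)|` gives an element of order
`19 p`, against `J1.spec_J1`; so `|C(x)| = 19` (`19² ∤`).  `|N| = 19 k` with `k ∣ 18` (`φ` above), `zpowers x` is a Sylow subgroup
(`Sylow.ofCard`), `9240 / k = |G : N| ≡ 1` mod 19 (`card_sylow_modEq_one`, `Sylow.card_eq_index_normalizer`), so `k = 6`. -/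
theorem six_j1 (h : Spor.IsoJ1 X) : Six X := by
  obtain ⟨e⟩ := h
  refine Six.congr ?_ e
  have c := J1.card_J1
  have : Finite Spor.J1 := Nat.finite_of_card_ne_zero (by rw [c]; decide)
  have : Fact (Nat.Prime 19) := ⟨by norm_num⟩
  obtain ⟨x, o⟩ := exists_prime_orderOf_dvd_card' (G := Spor.J1) 19 (by rw [c]; decide)
  have cz : Nat.card (zpowers x) = 19 := (Nat.card_zpowers x).trans o
  have c1 : Nat.card (centralizer {x}) = 19 := by
    obtain ⟨n, hn⟩ : ∃ n, Nat.card (centralizer {x}) = 19 ^ n := ⟨_, Nat.eq_prime_pow_of_unique_prime_dvd Nat.card_pos.ne' fun {p} pp d =>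
      by_contra fun n => by
        have := Fact.mk pp
        obtain ⟨y, oy⟩ := exists_prime_orderOf_dvd_card' p d
        obtain ⟨j, hj, k⟩ := J1.spec_J1.le ⟨y.1 * x, rfl⟩
        rw [(show Commute y.1 x from mem_centralizer_singleton_iff.1 y.2).orderOf_mul_eq_mul_orderOf_of_coprime
          (by rw [orderOf_coe, oy, o]; exact (Nat.coprime_primes pp Fact.out).2 n), orderOf_coe, oy, o] at k
        have k' := (Dvd.intro_left p rfl).trans k
        obtain rfl : j = 19 := (by decide : ∀ j ∈ [6, 7, 10, 11, 15, 19], 19 ∣ j → j = 19) j hj k'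
        exact pp.one_lt.not_ge (Nat.le_of_mul_le_mul_right (c := 19) (Nat.le_of_dvd (by decide) k) (by decide))⟩
    have d1 : 19 ∣ 19 ^ n := hn ▸ cz ▸ card_dvd_of_le (zpowers_le.2 (mem_centralizer_singleton_iff.2 rfl))
    have d2 : 19 ^ n ∣ 175560 := hn ▸ c ▸ card_subgroup_dvd_card _
    rcases n with _ | _ | n
    · exact absurd d1 (by decide)
    · exact hn
    · exact absurd ((pow_dvd_pow 19 (show 2 ≤ n + 1 + 1 by omega)).trans d2) (by decide)
  refine six_of Fact.out (by decide) (by decide) o ?_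
  have k := six_nc x
  have d := card_subgroup_dvd_card (zpowers x).normalizerMonoidHom.range
  rw [IsCyclic.card_mulAut, cz, Nat.totient_prime Fact.out] at d
  let P : Sylow 19 Spor.J1 := Sylow.ofCard (zpowers x) (by
    rw [cz, c, show 175560 = 19 ^ 1 * 9240 from rfl, Nat.factorization_mul_apply_of_coprime (by decide),
      Nat.Prime.factorization_pow Fact.out, Nat.factorization_eq_zero_of_not_dvd (by decide)]
    simp)
  have s := card_sylow_modEq_one 19 Spor.J1
  rw [P.card_eq_index_normalizer] at s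
  have t : Nat.card (normalizer (zpowers x : Set Spor.J1)) * (normalizer (P : Set Spor.J1)).index = 175560 :=
    c ▸ card_mul_index _
  rw [k, c1] at t ⊢
  generalize Nat.card (zpowers x).normalizerMonoidHom.range = a at d t ⊢
  have := Nat.le_of_dvd (by decide) d
  unfold Nat.ModEq at s
  interval_cases a <;> omega

/-- `Ree.exists_model`, `M.exists_torE_pair` (see `S1158`): `t.A = t.T`, `|t.N| = 6 |t.T|`.  Take `x ∈ t.A` of prime order `r`
(`t.one_lt_card_A`, odd by `t.odd_card_A`); `t.cent_A`, `t.normalizer_of_le`.  `r ∣ |t.T| ∣ q² - q + 1` (product of the two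
orders, `r₀² = 3 q`), and `5 ∤ q² - q + 1` for every `q` (check in `ZMod 5`). -/
theorem six_ree (h : Lie.IsoRee X) : Six X := by
  obtain ⟨K, _, _, m, hm, hK, ⟨e⟩⟩ := h
  refine Six.congr ?_ e
  obtain ⟨M, -⟩ := Ree.exists_model hK
  have := M.finite
  have hq : 3 < Nat.card K := by
    rw [Nat.card_eq_fintype_card, hK]
    exact (by decide : 3 < 3 ^ 3).trans_le (Nat.pow_le_pow_right three_pos (by omega))
  have sq : (3 ^ (m + 1)) ^ 2 = 3 * Nat.card K := by rw [Nat.card_eq_fintype_card, hK]; ring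
  obtain ⟨-, t, -, h1, -, h2, -, h3⟩ := M.exists_torE_pair hq sq
  obtain ⟨r, hr, d⟩ := Nat.exists_prime_and_dvd t.one_lt_card_A.ne'
  have := Fact.mk hr
  obtain ⟨x, o⟩ := exists_prime_orderOf_dvd_card' r d
  have x1 : x.1 ≠ 1 := fun k => hr.ne_one (by rw [← o, ← orderOf_coe, k, orderOf_one])
  refine six_of hr (fun k => t.odd_card_A.not_two_dvd_nat (k ▸ d)) (fun k => ?_) ((orderOf_coe x).trans o) (by
    rw [t.normalizer_of_le (zpowers_le.2 x.2) (mt zpowers_eq_bot.1 x1), t.cent_A x.2 x1, h3])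
  rw [h1, h2, k] at d
  have a := (ZMod.natCast_eq_zero_iff _ _).2 d
  have b := congrArg (Nat.cast : ℕ → ZMod 5) sq
  push_cast at a b
  generalize (3 : ZMod 5) ^ (m + 1) = y at a b
  generalize (Nat.card K : ZMod 5) = q at a b
  revert y q
  decide

end Cfsg.Lib.Q5C
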