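import Cfsg.Agent.Lib.Q5C.Def

/-!
# Q5 branch C: data of `PSp₄(2ᵃ)`
-/

set_option autoImplicit false

namespace Cfsg.Lib.Q5C

open scoped MatrixGroups Matrix commutatorElement

namespace Sp

/-- `Sp₄(2)` -/
abbrev S := Matrix.symplecticGroup (Fin 2) (ZMod 2)

/-- the transvection with centre `v` -/
def t (v : Fin 2 ⊕ Fin 2 → ZMod 2) : S :=
  ⟨1 + Matrix.vecMulVec v (v ∘ Sum.swap), SymplecticGroup.mem_iff.2 (by revert v; decide +kernel)⟩

def z : S := t (Sum.elim ![1, 0] ![0, 0])
def b : S := t (Sum.elim ![0, 1] ![0, 0])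
def w : S := t (Sum.elim ![0, 0] ![0, 1])
def a : S := t (Sum.elim ![0, 1] ![0, 1]) * t (Sum.elim ![1, 1] ![0, 1])
def u : S := t (Sum.elim ![0, 0] ![1, 1]) * t (Sum.elim ![1, 1] ![1, 1])

variable (E : Type*) [Field E] [CharP E 2]

/-- extension of scalars -/
def φ : S →* Matrix.symplecticGroup (Fin 2) E where
  toFun g := ⟨g.1.map (ZMod.castHom dvd_rfl E), SymplecticGroup.mem_iff.2 (by
    have := congrArg (·.map (ZMod.castHom dvd_rfl E)) (SymplecticGroup.mem_iff.1 g.2)
    simpa only [Matrix.map_mul, Matrix.transpose_map, Matrix.map_J] using this)⟩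
  map_one' := Subtype.ext (Matrix.map_one _ (map_zero _) (map_one _))
  map_mul' _ _ := Subtype.ext Matrix.map_mul

/-- the map to the quotient -/
def f : S →* PSp 2 E := (QuotientGroup.mk' _).comp (φ E)

variable {E}

theorem ne {g : S} (h : S) (n : h * g ≠ g * h) : f E g ≠ 1 := fun e => n (Subtype.ext (Matrix.map_injective
  (ZMod.castHom dvd_rfl E).injective (congrArg Subtype.val ((map_mul (φ E) h g).trans
    ((Subgroup.mem_center_iff.1 ((QuotientGroup.eq_one_iff _).1 e) (φ E h)).trans (map_mul (φ E) g h).symm)) :)))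

end Sp

/-- Hyperbolic basis `e₁ e₂ f₁ f₂` (`inl 0, inl 1, inr 0, inr 1`), `t v` the transvection `x ↦ x + B(x, v) v`:
`z = t e₁`, `b = t e₂`, `w = t f₂`, `a = t (e₂ + f₂) * t (e₁ + e₂ + f₂)`, `u = t (f₁ + f₂) * t (e₁ + e₂ + f₁ + f₂)`.
Write them as explicit matrices over `ZMod 2`, check the relations by `decide`, and map them by
`(ZMod.castHom dvd_rfl E).mapMatrix` into `symplecticGroup (Fin 2) E` (`SymplecticGroup.mem_iff`, `Matrix.map_J`) and on to the
quotient.  If the image of `g` in the quotient is `1` then `g` is central, so commutes over `ZMod 2` (the map is injective)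
with every matrix of `Sp₄(2)`; for `z1`, `y1`, `nc` (`g = ⁅b, w b w⁻¹⁆`) name one that does not commute. -/
theorem spd_psp {E : Type*} [Field E] [CharP E 2] : ∃ z a b u w : PSp 2 E, SpD z a b u w := by
  have k : ∀ {x y : Sp.S}, x = y → Sp.f E x = Sp.f E y := congrArg _
  refine ⟨Sp.f E Sp.z, Sp.f E Sp.a, Sp.f E Sp.b, Sp.f E Sp.u, Sp.f E Sp.w, ?_, Sp.ne Sp.u (by decide +kernel), ?_, ?_, ?_, ?_, ?_, ?_,
    ?_, ?_, ?_, fun e => Sp.ne (E := E) (g := ⁅Sp.b, Sp.w * Sp.b * Sp.w⁻¹⁆) Sp.b (by decide +kernel) ?_⟩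
  all_goals try simp only [← map_mul, ← map_inv, ← map_pow, ← map_commutatorElement]
  · exact (k (by decide +kernel)).trans (map_one _)
  · exact (k (by decide +kernel)).trans (map_one _)
  · exact (k (by decide +kernel)).trans (map_one _)
  · exact k (by decide +kernel)
  · exact k (by decide +kernel)
  · exact (k (by decide +kernel)).trans (map_one _)
  · exact Sp.ne Sp.w (by decide +kernel)
  · exact k (by decide +kernel)
  · exact k (by decide +kernel)
  · exact k (by decide +kernel)
  · simpa only [map_commutatorElement, map_mul, map_inv, commutatorElement_eq_one_iff_commute] using e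

end Cfsg.Lib.Q5C
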