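import Cfsg.Agent.Lib.Q5C.Def
import Cfsg.Agent.Lib.U3.Model

/-!
# Q5 branch C: data of `U₃(2ᵃ)`
-/

set_option autoImplicit false

namespace Cfsg.Lib.Q5C

open scoped MatrixGroups Matrix commutatorElement

/-- `M` from `U3.exists_model_PSU` (`Fact (Involutive σ)` from `b.invol`), `U = M.U` (`card_U = q ^ 3`, `q` is a power of 2:
`exists_prime_pow_of_card` / `b.cast_q`; characteristic 2 from `Even q`), `z = M.u 0 1`, `w = M.w`.  For `g = u x y * h a ∈ B`: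
`g z g⁻¹ = u 0 (a σ a) = v * v` with `v = u a c`, `c + σ c = a σ a` (`exists_trace_eq`; `u_mul`, `h_conj_u`).  `br`: `M.bruhat`
with `b = u x' y' * h a`, `smul_inf_iff`. -/
theorem r1_psu {E : Type*} [Field E] {σ : E →+* E} {q : ℕ} (b : Unitary.IsBar q σ) (h : Even q) :
    ∃ (U : Subgroup (PSU 3 E q)) (z w : PSU 3 E q), R1 U z w := by
  have : Fact (Function.Involutive σ) := ⟨b.invol⟩
  have := b.finite
  have := Fintype.ofFinite E
  obtain ⟨M, -⟩ := U3.exists_model_PSU b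
  obtain ⟨p, n, pp, cp, n1, e⟩ := Unitary.exists_prime_pow_of_card (F := E) (Nat.card_eq_fintype_card.symm.trans b.card)
  obtain rfl : p = 2 := pp.even_iff.1 (Nat.even_pow.1 (e ▸ h)).1
  have h11 : (1 : E) + 1 = 0 := CharTwo.add_self_eq_zero 1
  have hz : U3.Hs σ 0 1 := by simp [U3.Hs, h11]
  obtain ⟨c, hc⟩ := b.exists_trace_eq (map_one σ)
  have hv : U3.Hs σ 1 c := by simp [U3.Hs, hc]
  have sq : M.u 0 1 = M.u 1 c * M.u 1 c := by rw [M.u_mul hv hv, h11, CharTwo.add_self_eq_zero, map_one, mul_one, zero_add]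
  have k : ∀ g ∈ M.B, ∃ v ∈ M.U, g * M.u 0 1 * g⁻¹ = v * v := fun g hg =>
    ⟨_, M.conj_mem_U hg (M.u_mem_U hv), by rw [sq, conj_mul]⟩
  refine ⟨M.U, M.u 0 1, M.w, .of_card (n := n * 3) (by rw [M.card_U, e, pow_mul]), by simp [M.u_mul hz hz, h11, M.u_zero],
    fun r => one_ne_zero ((M.u_eq_one hz).1 r), fun u hu => ?_, fun g => ?_⟩
  · obtain ⟨x, y, r, rfl⟩ := M.mem_U.1 hu
    simp [M.u_mul r hz, M.u_mul hz r, add_comm]
  · rcases M.bruhat g with r | ⟨x, y, x', y', a, r, r', a0, rfl⟩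
    · exact .inl (k g r)
    · exact .inr ⟨_, M.u_mem_U r, _, k _ (M.mem_B'.2 ⟨x', y', a, r', a0, rfl⟩), mul_assoc _ _ _⟩

end Cfsg.Lib.Q5C
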